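import Cfsg.Agent.Lib.Helper77.AschG.Defs
import Cfsg.Agent.Lib.Helper5.AschC.Defs

/-! Ladder ASCHG block B (general C7): definitions. -/

set_option autoImplicit false

namespace Cfsg.Agent.Lib.Helper77.AschG

open Cfsg Cfsg.Geo Cfsg.Agent.Lib.Helper77.Asch Cfsg.Agent.Lib.Helper5.AschC
open scoped MatrixGroups Matrix

variable {n : ℕ} {F : Type*} [Field F]

/-- the pure tensor `y 0 ⊗ ⋯ ⊗ y (k-1)` as a matrix indexed by functions. -/
def pt {a k : ℕ} (y : Fin k → Matrix (Fin a) (Fin a) F) : Matrix (Fin k → Fin a) (Fin k → Fin a) F :=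
  fun u v => ∏ i, y i (u i) (v i)

/-- `1 ⊗ ⋯ ⊗ x ⊗ ⋯ ⊗ 1` with `x` in slot `i`. -/
def slot {a k : ℕ} (i : Fin k) (x : Matrix (Fin a) (Fin a) F) : Matrix (Fin k → Fin a) (Fin k → Fin a) F :=
  pt (Function.update (fun _ => (1 : Matrix (Fin a) (Fin a) F)) i x)

/-- the matrix permuting the tensor factors (same convention as `IsFactorPermutation`). -/
def fp {a k : ℕ} (σ : Equiv.Perm (Fin k)) : Matrix (Fin k → Fin a) (Fin k → Fin a) F :=
  fun u v => if v = u ∘ σ then 1 else 0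

/-- transport of a matrix on the tensor power to `Fin n` along `e`, conjugated by `P`. -/
def tw {a k : ℕ} (e : Fin n ≃ (Fin k → Fin a)) (P : GL (Fin n) F)
    (M : Matrix (Fin k → Fin a) (Fin k → Fin a) F) : Matrix (Fin n) (Fin n) F :=
  (P : Matrix (Fin n) (Fin n) F) * Matrix.reindex e.symm e.symm M * ((P⁻¹ : GL (Fin n) F) : Matrix (Fin n) (Fin n) F)

end Cfsg.Agent.Lib.Helper77.AschG
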