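import Cfsg.Agent.Lib.Helper77.AschG.Defs

set_option autoImplicit false

namespace Cfsg.Agent.Lib.Helper77.AschG

open Cfsg Cfsg.Geo Cfsg.Agent.Lib.Helper77.Asch
open scoped MatrixGroups Matrix

variable {n : ℕ} {F : Type*} [Field F]

open scoped commutatorElement in
/-- RGRP (abstract). -/
theorem exists_prime_exp {G : Type*} [Group G] [Finite G] (H Z N : Subgroup G)
    (hZc : ∀ z ∈ Z, ∀ g : G, g * z = z * g) (hm : MinOver H Z N) (hab : ⁅N, N⁆ ≤ Z) :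
    ∃ r : ℕ, r.Prime ∧ ∀ x ∈ N, x ^ r ∈ Z := by
  haveI hZn : Z.Normal := ag5_normal_of_central Z hZc
  obtain ⟨x, hxN, hxZ⟩ := SetLike.exists_of_lt hm.lt
  let π := QuotientGroup.mk' Z
  have hπ : ∀ g : G, π g = 1 ↔ g ∈ Z := fun g => QuotientGroup.eq_one_iff g
  have hk1 : orderOf (π x) ≠ 1 := by
    rw [Ne, orderOf_eq_one_iff, hπ]; exact hxZ
  obtain ⟨r, hr, hrk⟩ := Nat.exists_prime_and_dvd hk1
  have hk0 : orderOf (π x) ≠ 0 := (orderOf_pos _).ne'
  have hy := orderOf_pow_orderOf_div hk0 hrk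
  set y := x ^ (orderOf (π x) / r) with hydef
  have hπy : orderOf (π y) = r := by rw [hydef, map_pow]; exact hy
  have hcomm : ∀ a ∈ N, ∀ b ∈ N, Commute (π a) (π b) := by
    intro a ha b hb
    have h1 : ⁅a, b⁆ ∈ Z := hab (Subgroup.commutator_mem_commutator ha hb)
    have h2 : ⁅π a, π b⁆ = 1 := by rw [← map_commutatorElement, hπ]; exact h1
    exact commutatorElement_eq_one_iff_mul_comm.1 h2
  let M : Subgroup G :=
    { carrier := {g | g ∈ N ∧ g ^ r ∈ Z}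
      one_mem' := ⟨N.one_mem, by rw [one_pow]; exact Z.one_mem⟩
      mul_mem' := by
        rintro a b ⟨ha, ha'⟩ ⟨hb, hb'⟩
        refine ⟨N.mul_mem ha hb, ?_⟩
        rw [← hπ, map_pow, map_mul, (hcomm a ha b hb).mul_pow, ← map_pow, ← map_pow,
          (hπ _).2 ha', (hπ _).2 hb', one_mul]
      inv_mem' := by
        rintro a ⟨ha, ha'⟩
        exact ⟨N.inv_mem ha, by rw [inv_pow]; exact Z.inv_mem ha'⟩ }
  have hM : ∀ g, g ∈ M ↔ g ∈ N ∧ g ^ r ∈ Z := fun g => Iff.rfl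
  have hZM : Z ≤ M := fun z hz => ⟨hm.lt.le hz, Z.pow_mem hz r⟩
  have hMN : M ≤ N := fun g hg => hg.1
  have hnorm : NormBy H M := by
    intro h hh g hg
    refine ⟨hm.norm h hh g hg.1, ?_⟩
    rw [conj_pow]
    exact hZn.conj_mem _ hg.2 h
  have hyM : y ∈ M := by
    refine ⟨N.pow_mem hxN _, ?_⟩
    rw [← hπ, map_pow, ← hπy, pow_orderOf_eq_one]
  have hyZ : y ∉ Z := by
    intro h
    have h1 : π y = 1 := (hπ y).2 h
    rw [h1, orderOf_one] at hπy
    exact hr.one_lt.ne hπy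
  rcases hm.min M hZM hMN hnorm with h | h
  · exact absurd (h ▸ hyM) hyZ
  · exact ⟨r, hr, fun g hg => ((hM g).1 (h ▸ hg)).2⟩

end Cfsg.Agent.Lib.Helper77.AschG
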