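import Cfsg.Agent.Lib.Helper77.AschG.DefsB
import Cfsg.Agent.Lib.Helper77.Asch.AG2

set_option autoImplicit false
set_option linter.style.haveILetI false

namespace Cfsg.Agent.Lib.Helper77.AschG

open Cfsg Cfsg.Geo Cfsg.Agent.Lib.Helper77.Asch Cfsg.Agent.Lib.Helper5.AschC
open scoped MatrixGroups Matrix Kronecker commutatorElement

variable {n : ℕ} {F : Type*} [Field F]

theorem agkp_map_map {G : Type*} [Group G] (X : Subgroup G) (a b : G) :
    (X.map (MulAut.conj b).toMonoidHom).map (MulAut.conj a).toMonoidHom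
      = X.map (MulAut.conj (a * b)).toMonoidHom := by
  rw [Subgroup.map_map]
  congr 1
  ext x
  simp [mul_assoc]

theorem agkp_map_one {G : Type*} [Group G] (X : Subgroup G) :
    X.map (MulAut.conj (1 : G)).toMonoidHom = X := by
  ext x
  constructor
  · rintro ⟨y, hy, rfl⟩
    simpa using hy
  · intro hx
    exact ⟨x, hx, by simp⟩

theorem agkp_key {G : Type*} [Group G] [Finite G] (H Z N M : Subgroup G)
    (hZc : ∀ z ∈ Z, ∀ g : G, g * z = z * g) (hN : NormBy H N) (hZM : Z ≤ M) (hMleN : M ≤ N)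
    (hMnorm : NormBy N M)
    (hMmin : ∀ M' : Subgroup G, Z ≤ M' → M' ≤ M → NormBy N M' → M' = Z ∨ M' = M)
    (h : G) (hh : h ∈ H) (hne : M.map (MulAut.conj h).toMonoidHom ≠ M) :
    ⁅M, M⁆ ≤ Subgroup.centralizer ((M.map (MulAut.conj h).toMonoidHom : Subgroup G) : Set G) := by
  have hMhN : M.map (MulAut.conj h).toMonoidHom ≤ N := ag2_conj_le hN hMleN hh
  have hMhn : NormBy N (M.map (MulAut.conj h).toMonoidHom) := ag2_conj_normBy hN hMnorm hh
  have hZMh : Z ≤ M.map (MulAut.conj h).toMonoidHom := by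
    intro z hz
    refine ⟨z, hZM hz, ?_⟩
    simp only [MulEquiv.coe_toMonoidHom, MulAut.conj_apply]
    rw [hZc z hz h, mul_inv_cancel_right]
  have hcard : Nat.card (M.map (MulAut.conj h).toMonoidHom) = Nat.card M :=
    Subgroup.card_map_of_injective (MulAut.conj h).injective
  generalize M.map (MulAut.conj h).toMonoidHom = Mh at *
  have hD : M ⊓ Mh = Z := by
    rcases hMmin (M ⊓ Mh) (le_inf hZM hZMh) inf_le_left (ag5_normBy_inf hMnorm hMhn) with h1 | h1
    · exact h1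
    · exfalso
      have hle : M ≤ Mh := inf_eq_left.1 h1
      have heq : M = Mh := Subgroup.eq_of_le_of_card_ge hle hcard.le
      exact hne heq.symm
  have hcomm : ⁅M, Mh⁆ ≤ Z := by
    rw [← hD, Subgroup.commutator_le]
    intro a ha b hb
    rw [Subgroup.mem_inf]
    constructor
    · have h1 : b * a⁻¹ * b⁻¹ ∈ M := hMnorm b (hMhN hb) a⁻¹ (inv_mem ha)
      have h2 : ⁅a, b⁆ = a * (b * a⁻¹ * b⁻¹) := by
        rw [commutatorElement_def]; group
      rw [h2]; exact mul_mem ha h1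
    · have h1 : a * b * a⁻¹ ∈ Mh := hMhn a (hMleN ha) b hb
      rw [commutatorElement_def]
      exact mul_mem h1 (inv_mem hb)
  have hZcent : ∀ K : Subgroup G, Z ≤ Subgroup.centralizer (K : Set G) := by
    intro K z hz
    rw [Subgroup.mem_centralizer_iff]
    intro k _
    exact hZc z hz k
  have h1 : ⁅⁅M, Mh⁆, M⁆ = ⊥ := by
    rw [Subgroup.commutator_eq_bot_iff_le_centralizer]
    exact hcomm.trans (hZcent M)
  have h2 : ⁅⁅Mh, M⁆, M⁆ = ⊥ := by
    rw [Subgroup.commutator_comm Mh M]; exact h1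
  have h3 : ⁅⁅M, M⁆, Mh⁆ = ⊥ := Subgroup.commutator_commutator_eq_bot_of_rotate h1 h2
  rw [Subgroup.commutator_eq_bot_iff_le_centralizer] at h3
  exact h3


/-- AGKP. -/
theorem exists_commuting_conj' {G : Type*} [Group G] [Finite G] (H Z N : Subgroup G)
    (hZc : ∀ z ∈ Z, ∀ g : G, g * z = z * g) (hm : MinOver H Z N) (hnab : ¬ ⁅N, N⁆ ≤ Z)
    (hns : ¬ ∀ M : Subgroup G, Z ≤ M → M ≤ N → NormBy N M → M = Z ∨ M = N) :
    ∃ (Q : Subgroup G) (k : ℕ) (g : Fin k → G), 2 ≤ k ∧ (∀ i, g i ∈ H) ∧ Q ≤ N ∧ ¬ Q ≤ Z ∧ NormBy N Q ∧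
      (∀ i j, i ≠ j → ∀ x ∈ Q, ∀ y ∈ Q,
        (g i * x * (g i)⁻¹) * (g j * y * (g j)⁻¹) = (g j * y * (g j)⁻¹) * (g i * x * (g i)⁻¹)) ∧
      (∀ x ∈ N, x ∈ (⨆ i, Q.map (MulAut.conj (g i)).toMonoidHom) ⊔ Z) ∧
      (∀ x ∈ N, ∃ q ∈ Q, ∃ c : G, (∀ y ∈ Q, c * y = y * c) ∧ x = q * c) ∧
      (∀ h ∈ H, ∃ σ : Equiv.Perm (Fin k), ∀ i,
        Q.map (MulAut.conj (h * g i)).toMonoidHom = Q.map (MulAut.conj (g (σ i))).toMonoidHom) := by
  push Not at hns
  obtain ⟨M₀, hZM₀, hM₀N, hM₀n, hne1, hne2⟩ := hns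
  have hlt : Z < M₀ := lt_of_le_of_ne hZM₀ (Ne.symm hne1)
  obtain ⟨M, hZltM, hMM₀, hMnorm, hMmin⟩ := ag0_exists_min N Z M₀ hlt hM₀n
  have hMleN : M ≤ N := hMM₀.trans hM₀N
  have hQM : ⁅M, M⁆ ≤ M := ag5_commutator_le_self M
  have hQn : NormBy N ⁅M, M⁆ := ag5_normBy_commutator hMnorm hMnorm
  have hQZ : ¬ ⁅M, M⁆ ≤ Z := by
    intro hle
    have hsol : Group.IsSolvable M := by
      apply ag2_solvable_of_comm_derived
      intro a ha b _
      exact (hZc a (hle ha) b).symm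
    exact absurd (ag2_alpha H Z N hZc hm hnab M hMleN hMnorm hsol) (not_le_of_gt hZltM)
  have hnotH : ¬ NormBy H M := by
    intro hH
    rcases hm.min M hZltM.le hMleN hH with h | h
    · exact hZltM.ne h.symm
    · exact hne2 (le_antisymm hM₀N (h ▸ hMM₀))
  -- enumeration of the conjugates
  set 𝒞 : Set (Subgroup G) := {X | ∃ h ∈ H, X = M.map (MulAut.conj h).toMonoidHom} with h𝒞
  haveI : Finite 𝒞 := Set.toFinite 𝒞
  set k := Nat.card 𝒞 with hk
  let e : 𝒞 ≃ Fin k := Finite.equivFin 𝒞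
  let g : Fin k → G := fun i => (e.symm i).2.choose
  have hgH : ∀ i, g i ∈ H := fun i => (e.symm i).2.choose_spec.1
  have hgM : ∀ i, M.map (MulAut.conj (g i)).toMonoidHom = ((e.symm i : 𝒞) : Subgroup G) :=
    fun i => (e.symm i).2.choose_spec.2.symm
  have hinj : ∀ i j, i ≠ j →
      M.map (MulAut.conj (g i)).toMonoidHom ≠ M.map (MulAut.conj (g j)).toMonoidHom := by
    intro i j hij heq
    rw [hgM, hgM] at heq
    exact hij (e.symm.injective (Subtype.ext heq))
  have hsurj : ∀ h ∈ H, ∃ i, M.map (MulAut.conj (g i)).toMonoidHom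
      = M.map (MulAut.conj h).toMonoidHom := by
    intro h hh
    refine ⟨e ⟨_, h, hh, rfl⟩, ?_⟩
    rw [hgM, Equiv.symm_apply_apply]
  have hQmap : ∀ a : G, (⁅M, M⁆ : Subgroup G).map (MulAut.conj a).toMonoidHom
      = ⁅M.map (MulAut.conj a).toMonoidHom, M.map (MulAut.conj a).toMonoidHom⁆ :=
    fun a => Subgroup.map_commutator _ _ _
  obtain ⟨i₀, hi₀⟩ := hsurj 1 H.one_mem
  rw [agkp_map_one] at hi₀
  have hk2 : 2 ≤ k := by
    unfold NormBy at hnotH
    push Not at hnotH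
    obtain ⟨h, hh, x, hx, hxM⟩ := hnotH
    obtain ⟨j, hj⟩ := hsurj h hh
    have hij : i₀ ≠ j := by
      intro heq
      rw [← heq, hi₀] at hj
      apply hxM
      rw [hj]
      exact ⟨x, hx, rfl⟩
    by_contra hlt2
    apply hij
    apply Fin.ext
    have h1 := i₀.2
    have h2 := j.2
    omega
  have hcent : ∀ i, M.map (MulAut.conj (g i)).toMonoidHom ≠ M →
      (⁅M, M⁆ : Subgroup G).map (MulAut.conj (g i)).toMonoidHom
        ≤ Subgroup.centralizer ((⁅M, M⁆ : Subgroup G) : Set G) := by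
    intro i hi
    have h1 := agkp_key H Z N M hZc hm.norm hZltM.le hMleN hMnorm hMmin (g i) (hgH i) hi
    intro y hy
    have hy' : y ∈ M.map (MulAut.conj (g i)).toMonoidHom := Subgroup.map_mono hQM hy
    rw [Subgroup.mem_centralizer_iff]
    intro q hq
    have h2 := h1 hq
    rw [Subgroup.mem_centralizer_iff] at h2
    exact (h2 y hy').symm
  have hC2 : N ≤ (⨆ i, (⁅M, M⁆ : Subgroup G).map (MulAut.conj (g i)).toMonoidHom) ⊔ Z := by
    set S : Subgroup G := (⨆ i, (⁅M, M⁆ : Subgroup G).map (MulAut.conj (g i)).toMonoidHom) ⊔ Z with hS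
    have hSN : S ≤ N := by
      refine sup_le (iSup_le fun i => ?_) hm.lt.le
      exact ag2_conj_le hm.norm (hQM.trans hMleN) (hgH i)
    have hSH : NormBy H S := by
      apply ag5_normBy_sup _ (ag5_normBy_central H Z hZc)
      rw [ag5_normBy_map]
      intro h hh
      rw [Subgroup.map_iSup]
      refine iSup_le fun i => ?_
      rw [agkp_map_map]
      obtain ⟨j, hj⟩ := hsurj (h * g i) (H.mul_mem hh (hgH i))
      have : (⁅M, M⁆ : Subgroup G).map (MulAut.conj (h * g i)).toMonoidHom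
          = (⁅M, M⁆ : Subgroup G).map (MulAut.conj (g j)).toMonoidHom := by
        rw [hQmap, hQmap, hj]
      rw [this]
      exact le_iSup (fun j => (⁅M, M⁆ : Subgroup G).map (MulAut.conj (g j)).toMonoidHom) j
    rcases hm.min S le_sup_right hSN hSH with h | h
    · exfalso
      apply hQZ
      have h1 : (⁅M, M⁆ : Subgroup G).map (MulAut.conj (g i₀)).toMonoidHom ≤ Z := by
        rw [← h]
        exact le_sup_of_le_left
          (le_iSup (fun j => (⁅M, M⁆ : Subgroup G).map (MulAut.conj (g j)).toMonoidHom) i₀)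
      rw [hQmap, hi₀] at h1
      exact h1
    · exact h.ge
  refine ⟨⁅M, M⁆, k, g, hk2, hgH, hQM.trans hMleN, hQZ, hQn, ?_, fun x hx => hC2 hx, ?_, ?_⟩
  · intro i j hij x hx y hy
    set h : G := (g i)⁻¹ * g j with hh
    have hhH : h ∈ H := H.mul_mem (H.inv_mem (hgH i)) (hgH j)
    have hne : M.map (MulAut.conj h).toMonoidHom ≠ M := by
      intro heq
      apply hinj i j hij
      have : M.map (MulAut.conj (g j)).toMonoidHom
          = (M.map (MulAut.conj h).toMonoidHom).map (MulAut.conj (g i)).toMonoidHom := by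
        rw [agkp_map_map, hh, mul_inv_cancel_left]
      rw [this, heq]
    have h1 := agkp_key H Z N M hZc hm.norm hZltM.le hMleN hMnorm hMmin h hhH hne hx
    rw [Subgroup.mem_centralizer_iff] at h1
    have h2 : h * y * h⁻¹ * x = x * (h * y * h⁻¹) := h1 _ ⟨y, hQM hy, rfl⟩
    have e1 : g j * y * (g j)⁻¹ = g i * (h * y * h⁻¹) * (g i)⁻¹ := by
      rw [hh]; group
    rw [e1]
    calc g i * x * (g i)⁻¹ * (g i * (h * y * h⁻¹) * (g i)⁻¹)
        = g i * (x * (h * y * h⁻¹)) * (g i)⁻¹ := by group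
      _ = g i * (h * y * h⁻¹ * x) * (g i)⁻¹ := by rw [h2]
      _ = g i * (h * y * h⁻¹) * (g i)⁻¹ * (g i * x * (g i)⁻¹) := by group
  · intro x hx
    have hle : (⨆ i, (⁅M, M⁆ : Subgroup G).map (MulAut.conj (g i)).toMonoidHom) ⊔ Z
        ≤ ⁅M, M⁆ ⊔ Subgroup.centralizer ((⁅M, M⁆ : Subgroup G) : Set G) := by
      refine sup_le (iSup_le fun i => ?_) ?_
      · by_cases hi : M.map (MulAut.conj (g i)).toMonoidHom = M
        · rw [hQmap, hi]; exact le_sup_left
        · exact (hcent i hi).trans le_sup_right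
      · refine le_trans ?_ le_sup_right
        intro z hz
        rw [Subgroup.mem_centralizer_iff]
        intro q _
        exact hZc z hz q
    have hx' := hle (hC2 hx)
    rw [ag2_mem_sup (Subgroup.centralizer_le_normalizer _)] at hx'
    obtain ⟨q, hq, c, hc, hqc⟩ := hx'
    refine ⟨q, hq, c, ?_, hqc.symm⟩
    intro y hy
    rw [Subgroup.mem_centralizer_iff] at hc
    exact (hc y hy).symm
  · intro h hh
    have hex : ∀ i, ∃ j, M.map (MulAut.conj (g j)).toMonoidHom
        = M.map (MulAut.conj (h * g i)).toMonoidHom := fun i => hsurj _ (H.mul_mem hh (hgH i))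
    choose f hf using hex
    have hfinj : Function.Injective f := by
      intro i j hij
      by_contra hne
      apply hinj i j hne
      have h1 : M.map (MulAut.conj (h * g i)).toMonoidHom = M.map (MulAut.conj (h * g j)).toMonoidHom := by
        rw [← hf i, ← hf j, hij]
      have h2 := congrArg (fun X : Subgroup G => X.map (MulAut.conj h⁻¹).toMonoidHom) h1
      simp only [agkp_map_map, inv_mul_cancel_left] at h2
      exact h2
    refine ⟨Equiv.ofBijective f (Finite.injective_iff_bijective.mp hfinj), fun i => ?_⟩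
    rw [hQmap, hQmap, Equiv.ofBijective_apply, hf i]

end Cfsg.Agent.Lib.Helper77.AschG
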