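import Cfsg.Agent.Lib.Helper77.AschG.DefsB

set_option autoImplicit false

namespace Cfsg.Agent.Lib.Helper77.AschG

open Cfsg Cfsg.Geo Cfsg.Agent.Lib.Helper77.Asch Cfsg.Agent.Lib.Helper5.AschC
open scoped MatrixGroups Matrix

variable {n : ℕ} {F : Type*} [Field F]

theorem pt_apply {a k : ℕ} (y : Fin k → Matrix (Fin a) (Fin a) F) (u v : Fin k → Fin a) :
    pt y u v = ∏ i, y i (u i) (v i) := rfl

/-- PT. -/
theorem pt_mul {a k : ℕ} (y z : Fin k → Matrix (Fin a) (Fin a) F) : pt y * pt z = pt (fun i => y i * z i) := by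
  ext u v
  rw [Matrix.mul_apply, pt_apply]
  simp only [pt_apply, Matrix.mul_apply, ← Finset.prod_mul_distrib]
  rw [Finset.prod_univ_sum, Fintype.piFinset_univ]

/-- PT. -/
theorem pt_one {a k : ℕ} : pt (fun _ : Fin k => (1 : Matrix (Fin a) (Fin a) F)) = 1 := by
  ext u v
  rw [pt_apply]
  by_cases h : u = v
  · subst h
    simp
  · rw [Matrix.one_apply_ne h]
    obtain ⟨i, hi⟩ := Function.ne_iff.1 h
    exact Finset.prod_eq_zero (Finset.mem_univ i) (Matrix.one_apply_ne hi)

theorem pt_update_apply {a k : ℕ} (y : Fin k → Matrix (Fin a) (Fin a) F) (i : Fin k)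
    (x : Matrix (Fin a) (Fin a) F) (u v : Fin k → Fin a) :
    pt (Function.update y i x) u v = x (u i) (v i) * ∏ j ∈ Finset.univ.erase i, y j (u j) (v j) := by
  rw [pt_apply, ← Finset.mul_prod_erase Finset.univ _ (Finset.mem_univ i), Function.update_self]
  congr 1
  apply Finset.prod_congr rfl
  intro j hj
  rw [Function.update_of_ne (Finset.ne_of_mem_erase hj)]

/-- PT. -/
theorem pt_update_smul {a k : ℕ} (y : Fin k → Matrix (Fin a) (Fin a) F) (i : Fin k) (c : F) (x : Matrix (Fin a) (Fin a) F) :
    pt (Function.update y i (c • x)) = c • pt (Function.update y i x) := by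
  ext u v
  rw [Matrix.smul_apply, pt_update_apply, pt_update_apply, Matrix.smul_apply, smul_eq_mul, smul_eq_mul,
    mul_assoc]

theorem pt_update_add {a k : ℕ} (y : Fin k → Matrix (Fin a) (Fin a) F) (i : Fin k) (x x' : Matrix (Fin a) (Fin a) F) :
    pt (Function.update y i (x + x')) = pt (Function.update y i x) + pt (Function.update y i x') := by
  ext u v
  rw [Matrix.add_apply, pt_update_apply, pt_update_apply, pt_update_apply, Matrix.add_apply, add_mul]

/-- PT. -/
theorem pt_transpose {a k : ℕ} (y : Fin k → Matrix (Fin a) (Fin a) F) : (pt y)ᵀ = pt (fun i => (y i)ᵀ) := by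
  ext u v
  rfl

/-- PT. -/
theorem slot_apply {a k : ℕ} (i : Fin k) (x : Matrix (Fin a) (Fin a) F) (u v : Fin k → Fin a) :
    slot i x u v = if ∀ j, j ≠ i → u j = v j then x (u i) (v i) else 0 := by
  unfold slot
  rw [pt_update_apply]
  split_ifs with h
  · rw [Finset.prod_eq_one, mul_one]
    intro j hj
    rw [h j (Finset.ne_of_mem_erase hj), Matrix.one_apply_eq]
  · push Not at h
    obtain ⟨j, hj, huv⟩ := h
    have h0 : ∏ j ∈ Finset.univ.erase i, (1 : Matrix (Fin a) (Fin a) F) (u j) (v j) = 0 :=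
      Finset.prod_eq_zero (Finset.mem_erase.2 ⟨hj, Finset.mem_univ j⟩) (Matrix.one_apply_ne huv)
    rw [h0, mul_zero]

/-- PT. -/
theorem slot_mul {a k : ℕ} (i : Fin k) (x y : Matrix (Fin a) (Fin a) F) : slot (k := k) i x * slot i y = slot i (x * y) := by
  unfold slot
  rw [pt_mul]
  congr 1
  funext j
  by_cases hj : j = i
  · subst hj
    simp
  · simp [Function.update_of_ne hj]

theorem slot_one {a k : ℕ} (i : Fin k) : slot (k := k) i (1 : Matrix (Fin a) (Fin a) F) = 1 := by
  unfold slot
  rw [Function.update_eq_self_iff.2 rfl, pt_one]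

theorem slot_add {a k : ℕ} (i : Fin k) (x y : Matrix (Fin a) (Fin a) F) : slot (k := k) i (x + y) = slot i x + slot i y := by
  unfold slot
  exact pt_update_add _ i x y

theorem slot_smul {a k : ℕ} (i : Fin k) (c : F) (x : Matrix (Fin a) (Fin a) F) : slot (k := k) i (c • x) = c • slot i x := by
  unfold slot
  exact pt_update_smul _ i c x

/-- PT. -/
theorem slot_injective {a k : ℕ} (i : Fin k) : Function.Injective (slot (F := F) (a := a) (k := k) i) := by
  intro x y hxy
  ext b c
  have h := congrFun (congrFun hxy (fun _ => b)) (Function.update (fun _ => b) i c)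
  rw [slot_apply, slot_apply, if_pos (fun j hj => by rw [Function.update_of_ne hj]),
    if_pos (fun j hj => by rw [Function.update_of_ne hj]), Function.update_self] at h
  exact h

/-- PT. -/
theorem pt_conj_slot {a k : ℕ} (y y' : Fin k → Matrix (Fin a) (Fin a) F) (h : ∀ j, y j * y' j = 1) (i : Fin k)
    (x : Matrix (Fin a) (Fin a) F) : pt y * slot i x * pt y' = slot i (y i * x * y' i) := by
  unfold slot
  rw [pt_mul, pt_mul]
  congr 1
  funext j
  by_cases hj : j = i
  · subst hj
    simp
  · simp [Function.update_of_ne hj, h j]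

end Cfsg.Agent.Lib.Helper77.AschG
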