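import Cfsg.Agent.Lib.Helper77.AschG.PT

set_option autoImplicit false

namespace Cfsg.Agent.Lib.Helper77.AschG

open Cfsg Cfsg.Geo Cfsg.Agent.Lib.Helper77.Asch Cfsg.Agent.Lib.Helper5.AschC
open scoped MatrixGroups Matrix

variable {n : ℕ} {F : Type*} [Field F]

theorem wc_diag {a k : ℕ} (c : Matrix (Fin k → Fin a) (Fin k → Fin a) F)
    (hc : ∀ i x, c * slot i x = slot i x * c) (u v : Fin k → Fin a) (huv : u ≠ v) : c u v = 0 := by
  obtain ⟨i, hi⟩ : ∃ i, u i ≠ v i := by
    by_contra h
    push Not at h
    exact huv (funext h)
  have h := congrFun (congrFun (hc i (Matrix.single (u i) (u i) 1)) u) v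
  rw [Matrix.mul_apply, Matrix.mul_apply] at h
  have h1 : ∑ w, c u w * slot i (Matrix.single (u i) (u i) (1 : F)) w v = 0 := by
    apply Finset.sum_eq_zero
    intro w _
    rw [slot_apply]
    split_ifs with hw
    · rw [Matrix.single_apply, if_neg (by rintro ⟨_, h2⟩; exact hi h2), mul_zero]
    · rw [mul_zero]
  have h2 : ∑ w, slot i (Matrix.single (u i) (u i) (1 : F)) u w * c w v = c u v := by
    rw [Finset.sum_eq_single u]
    · rw [slot_apply, if_pos (fun _ _ => rfl), Matrix.single_apply, if_pos ⟨rfl, rfl⟩, one_mul]
    · intro w _ hw
      rw [slot_apply]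
      split_ifs with hw'
      · rw [Matrix.single_apply]
        split_ifs with h3
        · exfalso
          apply hw
          funext j
          by_cases hj : j = i
          · rw [hj]; exact h3.2.symm
          · exact (hw' j hj).symm
        · rw [zero_mul]
      · rw [zero_mul]
    · intro h3; exact absurd (Finset.mem_univ u) h3
  rw [h1, h2] at h
  exact h.symm

theorem wc_step {a k : ℕ} (c : Matrix (Fin k → Fin a) (Fin k → Fin a) F)
    (hc : ∀ i x, c * slot i x = slot i x * c) (u : Fin k → Fin a) (i : Fin k) (b : Fin a) :
    c u u = c (Function.update u i b) (Function.update u i b) := by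
  have h := congrFun (congrFun (hc i (Matrix.single (u i) b 1)) u) (Function.update u i b)
  rw [Matrix.mul_apply, Matrix.mul_apply] at h
  have hval : slot i (Matrix.single (u i) b (1 : F)) u (Function.update u i b) = 1 := by
    rw [slot_apply, if_pos (fun j hj => by rw [Function.update_of_ne hj]), Function.update_self,
      Matrix.single_apply, if_pos ⟨rfl, rfl⟩]
  have h1 : ∑ w, c u w * slot i (Matrix.single (u i) b (1 : F)) w (Function.update u i b)
      = c u u := by
    rw [Finset.sum_eq_single u]
    · rw [hval, mul_one]
    · intro w _ hw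
      rw [slot_apply]
      split_ifs with hw'
      · rw [Matrix.single_apply]
        split_ifs with h3
        · exfalso
          apply hw
          funext j
          by_cases hj : j = i
          · rw [hj]; exact h3.1.symm
          · rw [hw' j hj, Function.update_of_ne hj]
        · rw [mul_zero]
      · rw [mul_zero]
    · intro h3; exact absurd (Finset.mem_univ u) h3
  have h2 : ∑ w, slot i (Matrix.single (u i) b (1 : F)) u w * c w (Function.update u i b)
      = c (Function.update u i b) (Function.update u i b) := by
    rw [Finset.sum_eq_single (Function.update u i b)]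
    · rw [hval, one_mul]
    · intro w _ hw
      rw [slot_apply]
      split_ifs with hw'
      · rw [Matrix.single_apply]
        split_ifs with h3
        · exfalso
          apply hw
          funext j
          by_cases hj : j = i
          · rw [hj, Function.update_self]; exact h3.2.symm
          · rw [Function.update_of_ne hj, hw' j hj]
        · rw [zero_mul]
      · rw [zero_mul]
    · intro h3; exact absurd (Finset.mem_univ _) h3
  rw [h1, h2] at h
  exact h

theorem wc_const {a k : ℕ} (c : Matrix (Fin k → Fin a) (Fin k → Fin a) F)
    (hc : ∀ i x, c * slot i x = slot i x * c) (s : Finset (Fin k)) :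
    ∀ u v : Fin k → Fin a, (∀ j, j ∉ s → u j = v j) → c u u = c v v := by
  induction s using Finset.induction_on with
  | empty =>
    intro u v h
    have : u = v := funext fun j => h j (by simp)
    rw [this]
  | insert i s _ ih =>
    intro u v h
    rw [wc_step c hc u i (v i)]
    apply ih
    intro j hj
    by_cases hji : j = i
    · rw [hji, Function.update_self]
    · rw [Function.update_of_ne hji]
      apply h
      simp [hji, hj]

/-- WC. -/
theorem scalar_of_comm_slots {a k : ℕ} (c : Matrix (Fin k → Fin a) (Fin k → Fin a) F)
    (hc : ∀ i x, c * slot i x = slot i x * c) : ∃ l : F, c = l • (1 : Matrix (Fin k → Fin a) (Fin k → Fin a) F) := by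
  rcases isEmpty_or_nonempty (Fin k → Fin a) with he | ⟨⟨u0⟩⟩
  · exact ⟨0, by ext u; exact isEmptyElim u⟩
  · refine ⟨c u0 u0, ?_⟩
    ext u v
    rw [Matrix.smul_apply, Matrix.one_apply, smul_eq_mul]
    by_cases huv : u = v
    · rw [if_pos huv, mul_one, ← huv]
      exact wc_const c hc Finset.univ u u0 (fun j hj => absurd (Finset.mem_univ j) hj)
    · rw [if_neg huv, mul_zero]
      exact wc_diag c hc u v huv

end Cfsg.Agent.Lib.Helper77.AschG
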