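import Cfsg.Agent.Lib.Helper77.AschG.DefsB

/-! Ladder ASCHG block B, rung TB1: commuting embeddings of `M_a(F)` give an embedding of the tensor power. -/

set_option autoImplicit false

namespace Cfsg.Agent.Lib.Helper77.AschG

open Cfsg Cfsg.Geo Cfsg.Agent.Lib.Helper77.Asch Cfsg.Agent.Lib.Helper5.AschC
open scoped MatrixGroups Matrix

variable {n : ℕ} {F : Type*} [Field F]

/-- abstract version: a system of matrix units `E` in an algebra `B` gives an algebra hom. -/
theorem tb1_units {I : Type*} [Fintype I] [DecidableEq I] {B : Type*} [Ring B] [Algebra F B]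
    (E : I → I → B) (hE : ∀ u v v' w, E u v * E v' w = if v = v' then E u w else 0)
    (h1 : ∑ u, E u u = 1) :
    ∃ Ψ : Matrix I I F →ₐ[F] B, ∀ M, Ψ M = ∑ u, ∑ v, M u v • E u v := by
  let L : Matrix I I F →ₗ[F] B :=
    { toFun := fun M => ∑ u, ∑ v, M u v • E u v
      map_add' := by
        intro M N
        simp only [Matrix.add_apply, add_smul, Finset.sum_add_distrib]
      map_smul' := by
        intro c M
        simp only [Matrix.smul_apply, smul_eq_mul, mul_smul, Finset.smul_sum, RingHom.id_apply] }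
  have hL : ∀ M, L M = ∑ u, ∑ v, M u v • E u v := fun M => rfl
  refine ⟨AlgHom.ofLinearMap L ?_ ?_, fun M => rfl⟩
  · rw [hL, ← h1]
    refine Finset.sum_congr rfl fun u _ => ?_
    rw [Finset.sum_eq_single u]
    · simp
    · intro v _ hv
      rw [Matrix.one_apply_ne (Ne.symm hv), zero_smul]
    · intro h; exact absurd (Finset.mem_univ u) h
  · intro M N
    rw [hL, hL, hL]
    rw [Finset.sum_mul]
    refine Finset.sum_congr rfl fun u _ => ?_
    rw [Finset.sum_mul]
    -- LHS: ∑ w, (M*N) u w • E u w
    have hR : ∀ v, (M u v • E u v) * (∑ v', ∑ w, N v' w • E v' w) = ∑ w, (M u v * N v w) • E u w := by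
      intro v
      rw [Finset.mul_sum, Finset.sum_eq_single v]
      · rw [Finset.mul_sum]
        refine Finset.sum_congr rfl fun w _ => ?_
        rw [smul_mul_smul_comm, hE, if_pos rfl]
      · intro v' _ hv'
        rw [Finset.mul_sum]
        refine Finset.sum_eq_zero fun w _ => ?_
        rw [smul_mul_smul_comm, hE, if_neg (Ne.symm hv'), smul_zero]
      · intro h; exact absurd (Finset.mem_univ v) h
    simp only [hR]
    rw [Finset.sum_comm]
    refine Finset.sum_congr rfl fun w _ => ?_
    rw [Matrix.mul_apply, Finset.sum_smul]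

/-- abstract version: commuting algebra homs give a multiplicative multilinear map. -/
theorem tb1_phi {k : ℕ} {A B : Type*} [Ring A] [Algebra F A] [Ring B] [Algebra F B]
    (φ : Fin k → (A →ₐ[F] B)) (hcomm : ∀ i j, i ≠ j → ∀ x y, φ i x * φ j y = φ j y * φ i x) :
    ∃ Φm : MultilinearMap F (fun _ : Fin k => A) B, (∀ y y', Φm (y * y') = Φm y * Φm y') ∧
      Φm 1 = 1 ∧ ∀ i x, Φm (Pi.mulSingle i x) = φ i x := by
  let ψ : Fin k → (A →* B) := fun i => (φ i).toRingHom.toMonoidHom
  have hψ : ∀ i x, ψ i x = φ i x := fun _ _ => rfl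
  let Φ : (Fin k → A) →* B :=
    MonoidHom.noncommPiCoprod ψ (fun i j hij x y => hcomm i j hij x y)
  have hΦs : ∀ i x, Φ (Pi.mulSingle i x) = φ i x := fun i x => by
    rw [← hψ]
    exact MonoidHom.noncommPiCoprod_mulSingle ψ i x
  have hupd : ∀ (f : Fin k → A) i x,
      Φ (Function.update f i x) = φ i x * Φ (Function.update f i 1) := by
    intro f i x
    rw [← hΦs, ← map_mul]
    congr 1
    funext j
    by_cases hj : j = i
    · subst hj; simp
    · simp [hj]
  refine ⟨{ toFun := Φ
            map_update_add' := ?_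
            map_update_smul' := ?_ }, fun y y' => map_mul Φ y y', map_one Φ, hΦs⟩
  · intro inst m i x y
    have : inst = instDecidableEqFin k := Subsingleton.elim _ _
    subst this
    rw [hupd, hupd m i x, hupd m i y, map_add, add_mul]
  · intro inst m i c x
    have : inst = instDecidableEqFin k := Subsingleton.elim _ _
    subst this
    rw [hupd, hupd m i x, map_smul, smul_mul_assoc]

theorem exists_tensor_hom {a k : ℕ} (φ : Fin k → (Matrix (Fin a) (Fin a) F →ₐ[F] Matrix (Fin n) (Fin n) F))
    (hcomm : ∀ i j, i ≠ j → ∀ x y, φ i x * φ j y = φ j y * φ i x) :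
    ∃ Ψ : Matrix (Fin k → Fin a) (Fin k → Fin a) F →ₐ[F] Matrix (Fin n) (Fin n) F, ∀ i x, Ψ (slot i x) = φ i x := by
  obtain ⟨Φm, hmul, hone, hΦs⟩ := tb1_phi φ hcomm
  let E : (Fin k → Fin a) → (Fin k → Fin a) → Matrix (Fin n) (Fin n) F :=
    fun u v => Φm (fun i => Matrix.single (u i) (v i) 1)
  have hE : ∀ u v v' w, E u v * E v' w = if v = v' then E u w else 0 := by
    intro u v v' w
    show Φm _ * Φm _ = _
    rw [← hmul]
    split_ifs with h
    · subst h
      show Φm _ = Φm _
      congr 1
      funext i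
      simp
    · obtain ⟨i, hi⟩ := Function.ne_iff.1 h
      apply MultilinearMap.map_coord_zero Φm i
      simp [Matrix.single_mul_single_of_ne, hi]
  have h1 : ∑ u, E u u = 1 := by
    have h2 := MultilinearMap.map_sum Φm (fun (_ : Fin k) (b : Fin a) => Matrix.single b b (1 : F))
    have h3 : (fun _ : Fin k => ∑ b : Fin a, Matrix.single b b (1 : F)) = 1 := by
      funext i
      ext b c
      rw [Matrix.sum_apply, Pi.one_apply]
      simp only [Matrix.single_apply, Matrix.one_apply]
      by_cases h : b = c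
      · subst h
        simp
      · rw [if_neg h]
        apply Finset.sum_eq_zero
        intro x _
        rw [if_neg]
        rintro ⟨rfl, rfl⟩
        exact h rfl
    rw [h3, hone] at h2
    exact h2.symm
  obtain ⟨Ψ, hΨ⟩ := tb1_units (F := F) E hE h1
  have hpt : ∀ y : Fin k → Matrix (Fin a) (Fin a) F, Ψ (pt y) = Φm y := by
    intro y
    have hy : y = fun j => ∑ p : Fin a × Fin a, y j p.1 p.2 • Matrix.single p.1 p.2 (1 : F) := by
      funext j
      rw [Fintype.sum_prod_type]
      conv_lhs => rw [Matrix.matrix_eq_sum_single (y j)]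
      simp [Matrix.smul_single]
    have h2 := MultilinearMap.map_sum Φm
      (fun (j : Fin k) (p : Fin a × Fin a) => y j p.1 p.2 • Matrix.single p.1 p.2 (1 : F))
    rw [← hy] at h2
    rw [h2, hΨ]
    have h4 : ∀ r : Fin k → Fin a × Fin a,
        Φm (fun j => y j (r j).1 (r j).2 • Matrix.single (r j).1 (r j).2 (1 : F))
          = pt y (fun j => (r j).1) (fun j => (r j).2) • E (fun j => (r j).1) (fun j => (r j).2) := by
      intro r
      rw [MultilinearMap.map_smul_univ]
      rfl
    simp only [h4]
    rw [← Fintype.sum_prod_type']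
    symm
    apply Fintype.sum_equiv (Equiv.arrowProdEquivProdArrow (Fin k) (fun _ => Fin a) (fun _ => Fin a))
    intro r
    rfl
  refine ⟨Ψ, fun i x => ?_⟩
  unfold slot
  rw [hpt, ← hΦs]
  rfl

end Cfsg.Agent.Lib.Helper77.AschG
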