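import Cfsg.Agent.Lib.Helper77.AschG.DefsB

set_option autoImplicit false

namespace Cfsg.Agent.Lib.Helper77.AschG

open Cfsg Cfsg.Geo Cfsg.Agent.Lib.Helper77.Asch Cfsg.Agent.Lib.Helper5.AschC
open scoped MatrixGroups Matrix

variable {n : ℕ} {F : Type*} [Field F]

theorem fpc_mul_apply {a k : ℕ} (σ : Equiv.Perm (Fin k)) (M : Matrix (Fin k → Fin a) (Fin k → Fin a) F)
    (u v : Fin k → Fin a) : ((fp σ : Matrix (Fin k → Fin a) (Fin k → Fin a) F) * M) u v = M (u ∘ σ) v := by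
  simp only [Matrix.mul_apply, fp]
  rw [Finset.sum_eq_single (u ∘ σ)]
  · simp
  · intro w _ hw
    rw [if_neg hw, zero_mul]
  · intro h
    exact absurd (Finset.mem_univ _) h

theorem fpc_apply_mul {a k : ℕ} (σ : Equiv.Perm (Fin k)) (M : Matrix (Fin k → Fin a) (Fin k → Fin a) F)
    (u v : Fin k → Fin a) : (M * (fp σ : Matrix (Fin k → Fin a) (Fin k → Fin a) F)) u v =
      M u (v ∘ (σ⁻¹ : Equiv.Perm (Fin k))) := by
  simp only [Matrix.mul_apply, fp]
  have key : ∀ w : Fin k → Fin a, v = w ∘ σ ↔ w = v ∘ (σ⁻¹ : Equiv.Perm (Fin k)) := by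
    intro w
    constructor
    · rintro rfl
      funext i
      simp
    · rintro rfl
      funext i
      simp
  rw [Finset.sum_eq_single (v ∘ (σ⁻¹ : Equiv.Perm (Fin k)))]
  · rw [if_pos ((key _).2 rfl), mul_one]
  · intro w _ hw
    rw [if_neg (fun h => hw ((key w).1 h)), mul_zero]
  · intro h
    exact absurd (Finset.mem_univ _) h

theorem fp_mul {a k : ℕ} (σ τ : Equiv.Perm (Fin k)) : (fp σ * fp τ : Matrix (Fin k → Fin a) (Fin k → Fin a) F) = fp (σ * τ) := by
  ext u v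
  rw [fpc_mul_apply]
  simp only [fp]
  rfl

theorem fp_one {a k : ℕ} : (fp 1 : Matrix (Fin k → Fin a) (Fin k → Fin a) F) = 1 := by
  ext u v
  simp only [fp, Matrix.one_apply]
  have : (v = u ∘ (1 : Equiv.Perm (Fin k))) ↔ u = v := by
    constructor
    · intro h; rw [h]; rfl
    · intro h; rw [h]; rfl
  simp only [this]

theorem fp_mul_pt {a k : ℕ} (σ : Equiv.Perm (Fin k)) (y : Fin k → Matrix (Fin a) (Fin a) F) :
    fp σ * pt y = pt (fun i => y (σ⁻¹ i)) * fp σ := by
  ext u v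
  rw [fpc_mul_apply, fpc_apply_mul]
  simp only [pt, Function.comp_apply]
  rw [← Equiv.prod_comp σ (fun i => y (σ⁻¹ i) (u i) (v (σ⁻¹ i)))]
  simp

theorem fp_conj_slot {a k : ℕ} (σ : Equiv.Perm (Fin k)) (i : Fin k) (x : Matrix (Fin a) (Fin a) F) :
    fp σ * slot i x * fp σ⁻¹ = slot (σ i) x := by
  simp only [slot]
  rw [fp_mul_pt, mul_assoc, fp_mul, mul_inv_cancel, fp_one, mul_one]
  congr 1
  funext j
  by_cases h : j = σ i
  · subst h
    simp
  · have h' : σ⁻¹ j ≠ i := by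
      intro h2
      apply h
      rw [← h2]
      simp
    rw [Function.update_of_ne h, Function.update_of_ne h']

theorem fp_transpose {a k : ℕ} (σ : Equiv.Perm (Fin k)) : (fp σ : Matrix (Fin k → Fin a) (Fin k → Fin a) F)ᵀ = fp σ⁻¹ := by
  ext u v
  simp only [fp, Matrix.transpose_apply]
  have : (u = v ∘ σ) ↔ (v = u ∘ (σ⁻¹ : Equiv.Perm (Fin k))) := by
    constructor
    · rintro rfl
      funext i
      simp
    · rintro rfl
      funext i
      simp
  simp only [this]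

end Cfsg.Agent.Lib.Helper77.AschG
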