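import Cfsg.Agent.Lib.Helper77.AschG.DefsB
import Cfsg.Agent.Lib.Helper5.AschC.NTEN

/-! Ladder ASCHG block B, rung SN (Skolem–Noether for algebra endomorphisms of `M_m(F)`). -/

set_option autoImplicit false

namespace Cfsg.Agent.Lib.Helper77.AschG

open Cfsg Cfsg.Geo Cfsg.Agent.Lib.Helper77.Asch Cfsg.Agent.Lib.Helper5.AschC
open scoped MatrixGroups Matrix

variable {n : ℕ} {F : Type*} [Field F]

theorem skolem_noether {m : ℕ} (α : Matrix (Fin m) (Fin m) F →ₐ[F] Matrix (Fin m) (Fin m) F) :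
    ∃ y : GL (Fin m) F, ∀ x, α x = (y : Matrix (Fin m) (Fin m) F) * x * ((y⁻¹ : GL (Fin m) F) : Matrix (Fin m) (Fin m) F) := by
  classical
  rcases Nat.eq_zero_or_pos m with rfl | hm
  · exact ⟨1, fun x => Subsingleton.elim _ _⟩
  · have : Nonempty (Fin m) := ⟨⟨0, hm⟩⟩
    have hinj : Function.Injective α := by
      have := RingHom.injective (α : Matrix (Fin m) (Fin m) F →+* Matrix (Fin m) (Fin m) F)
      exact this
    have hsurj : Function.Surjective α := by
      have := (LinearMap.injective_iff_surjective (f := α.toLinearMap)).mp hinj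
      exact this
    obtain ⟨y, hy⟩ := nten_inner (AlgEquiv.ofBijective α ⟨hinj, hsurj⟩)
    exact ⟨y, fun x => by rw [← hy x]; rfl⟩

end Cfsg.Agent.Lib.Helper77.AschG
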