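import Cfsg.Agent.Lib.Helper77.AschG.PT
import Cfsg.Agent.Lib.Helper77.AschG.FPC
import Cfsg.Agent.Lib.Helper77.AschG.SN
import Cfsg.Agent.Lib.Helper77.AschG.WC

set_option autoImplicit false

namespace Cfsg.Agent.Lib.Helper77.AschG

open Cfsg Cfsg.Geo Cfsg.Agent.Lib.Helper77.Asch Cfsg.Agent.Lib.Helper5.AschC
open scoped MatrixGroups Matrix

variable {n : ℕ} {F : Type*} [Field F]

/-- the factor permutation as a unit. -/
noncomputable def wn0Pi {a k : ℕ} (σ : Equiv.Perm (Fin k)) : GL (Fin k → Fin a) F :=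
  ⟨fp σ, fp σ⁻¹, by rw [fp_mul, mul_inv_cancel, fp_one], by rw [fp_mul, inv_mul_cancel, fp_one]⟩

/-- the pure tensor as a unit. -/
noncomputable def wn0T {a k : ℕ} (ys : Fin k → GL (Fin a) F) : GL (Fin k → Fin a) F :=
  ⟨pt (fun i => (ys i : Matrix (Fin a) (Fin a) F)),
    pt (fun i => ((ys i)⁻¹ : GL (Fin a) F).1),
    by
      rw [pt_mul]
      have : (fun i => (ys i : Matrix (Fin a) (Fin a) F) * ((ys i)⁻¹ : GL (Fin a) F).1)
          = fun _ => 1 := by
        funext i
        rw [← Units.val_mul, mul_inv_cancel, Units.val_one]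
      rw [this, pt_one],
    by
      rw [pt_mul]
      have : (fun i => ((ys i)⁻¹ : GL (Fin a) F).1 * (ys i : Matrix (Fin a) (Fin a) F))
          = fun _ => 1 := by
        funext i
        rw [← Units.val_mul, inv_mul_cancel, Units.val_one]
      rw [this, pt_one]⟩

/-- an inner automorphism preserving slot `i` induces an algebra endomorphism of `M_a(F)`. -/
theorem wn0_alg {a k : ℕ} (H H' : Matrix (Fin k → Fin a) (Fin k → Fin a) F) (h1 : H * H' = 1)
    (h2 : H' * H = 1) (i : Fin k) (hh : ∀ x, ∃ y, H * slot i x * H' = slot i y) :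
    ∃ α : Matrix (Fin a) (Fin a) F →ₐ[F] Matrix (Fin a) (Fin a) F,
      ∀ x, H * slot i x * H' = slot i (α x) := by
  choose f hf using hh
  have hinj := slot_injective (F := F) (a := a) (k := k) i
  have hadd : ∀ x y, f (x + y) = f x + f y := by
    intro x y
    apply hinj
    rw [← hf, slot_add, slot_add, ← hf, ← hf, mul_add, add_mul]
  have hsmul : ∀ (c : F) x, f (c • x) = c • f x := by
    intro c x
    apply hinj
    rw [← hf, slot_smul, slot_smul, ← hf, Matrix.mul_smul, Matrix.smul_mul]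
  have hone : f 1 = 1 := by
    apply hinj
    rw [← hf, slot_one, mul_one, h1]
  have hmul : ∀ x y, f (x * y) = f x * f y := by
    intro x y
    apply hinj
    rw [← hf, ← slot_mul, ← slot_mul, ← hf, ← hf]
    calc H * (slot i x * slot i y) * H' = H * slot i x * 1 * slot i y * H' := by
          rw [mul_one]; simp only [mul_assoc]
      _ = H * slot i x * (H' * H) * slot i y * H' := by rw [h2]
      _ = _ := by simp only [mul_assoc]
  let L : Matrix (Fin a) (Fin a) F →ₗ[F] Matrix (Fin a) (Fin a) F :=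
    { toFun := f, map_add' := hadd, map_smul' := hsmul }
  exact ⟨AlgHom.ofLinearMap L hone hmul, fun x => hf x⟩

/-- WN0. -/
theorem mem_tensorWreathStandard {a k : ℕ} (hk : 0 < k) (g : GL (Fin k → Fin a) F) (σ : Equiv.Perm (Fin k))
    (hg : ∀ i x, ∃ y, (g : Matrix (Fin k → Fin a) (Fin k → Fin a) F) * slot i x *
      ((g⁻¹ : GL (Fin k → Fin a) F) : Matrix (Fin k → Fin a) (Fin k → Fin a) F) = slot (σ i) y) :
    g ∈ tensorWreathStandard a k F := by
  rcases isEmpty_or_nonempty (Fin k → Fin a) with he | hne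
  · have : g = 1 := by
      apply Units.ext
      ext u
      exact isEmptyElim u
    rw [this]
    exact one_mem _
  have hπ : (wn0Pi σ : GL (Fin k → Fin a) F) ∈ tensorWreathStandard a k F :=
    Subgroup.subset_closure (Or.inr ⟨σ, fun x y => rfl⟩)
  have hT : ∀ ys : Fin k → GL (Fin a) F, wn0T ys ∈ tensorWreathStandard a k F := fun ys =>
    Subgroup.subset_closure (Or.inl ⟨ys, fun x y => rfl⟩)
  set h : GL (Fin k → Fin a) F := (wn0Pi σ)⁻¹ * g with hh
  have hval : (h : Matrix (Fin k → Fin a) (Fin k → Fin a) F) = fp σ⁻¹ * (g : Matrix _ _ F) := by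
    rw [hh, Units.val_mul]; rfl
  have hval' : ((h⁻¹ : GL (Fin k → Fin a) F) : Matrix (Fin k → Fin a) (Fin k → Fin a) F)
      = ((g⁻¹ : GL (Fin k → Fin a) F) : Matrix _ _ F) * fp σ := by
    rw [hh, mul_inv_rev, inv_inv, Units.val_mul]; rfl
  have hslot : ∀ i x, ∃ y, (h : Matrix (Fin k → Fin a) (Fin k → Fin a) F) * slot i x *
      ((h⁻¹ : GL (Fin k → Fin a) F) : Matrix (Fin k → Fin a) (Fin k → Fin a) F) = slot i y := by
    intro i x
    obtain ⟨y, hy⟩ := hg i x
    refine ⟨y, ?_⟩
    have h3 := fp_conj_slot (F := F) σ⁻¹ (σ i) y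
    rw [inv_inv, show σ⁻¹ (σ i) = i from σ.symm_apply_apply i] at h3
    rw [← h3, ← hy, hval, hval']
    simp only [mul_assoc]
  have hH1 : (h : Matrix (Fin k → Fin a) (Fin k → Fin a) F) *
      ((h⁻¹ : GL (Fin k → Fin a) F) : Matrix (Fin k → Fin a) (Fin k → Fin a) F) = 1 := by
    rw [← Units.val_mul, mul_inv_cancel, Units.val_one]
  have hH2 : ((h⁻¹ : GL (Fin k → Fin a) F) : Matrix (Fin k → Fin a) (Fin k → Fin a) F) *
      (h : Matrix (Fin k → Fin a) (Fin k → Fin a) F) = 1 := by
    rw [← Units.val_mul, inv_mul_cancel, Units.val_one]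
  have hex : ∀ i, ∃ y : GL (Fin a) F, ∀ x, (h : Matrix (Fin k → Fin a) (Fin k → Fin a) F) * slot i x *
      ((h⁻¹ : GL (Fin k → Fin a) F) : Matrix (Fin k → Fin a) (Fin k → Fin a) F) =
      slot i ((y : Matrix (Fin a) (Fin a) F) * x * ((y⁻¹ : GL (Fin a) F) : Matrix (Fin a) (Fin a) F)) := by
    intro i
    obtain ⟨α, hα⟩ := wn0_alg _ _ hH1 hH2 i (hslot i)
    obtain ⟨y, hy⟩ := skolem_noether α
    exact ⟨y, fun x => by rw [hα, hy]⟩
  choose ys hys using hex
  set t : GL (Fin k → Fin a) F := wn0T ys with ht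
  have htslot : ∀ i x, (t : Matrix (Fin k → Fin a) (Fin k → Fin a) F) * slot i x *
      ((t⁻¹ : GL (Fin k → Fin a) F) : Matrix (Fin k → Fin a) (Fin k → Fin a) F) =
      slot i ((ys i : Matrix (Fin a) (Fin a) F) * x * (((ys i)⁻¹ : GL (Fin a) F) : Matrix (Fin a) (Fin a) F)) := by
    intro i x
    exact pt_conj_slot (fun i => (ys i : Matrix (Fin a) (Fin a) F))
      (fun i => ((ys i)⁻¹ : GL (Fin a) F).1)
      (fun j => by rw [← Units.val_mul, mul_inv_cancel, Units.val_one]) i x
  set c : GL (Fin k → Fin a) F := t⁻¹ * h with hc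
  have hT2 : ((t⁻¹ : GL (Fin k → Fin a) F) : Matrix (Fin k → Fin a) (Fin k → Fin a) F) *
      (t : Matrix (Fin k → Fin a) (Fin k → Fin a) F) = 1 := by
    rw [← Units.val_mul, inv_mul_cancel, Units.val_one]
  have hcomm : ∀ i x, (c : Matrix (Fin k → Fin a) (Fin k → Fin a) F) * slot i x =
      slot i x * (c : Matrix (Fin k → Fin a) (Fin k → Fin a) F) := by
    intro i x
    have e := (hys i x).trans (htslot i x).symm
    rw [hc, Units.val_mul]
    generalize (h : Matrix (Fin k → Fin a) (Fin k → Fin a) F) = H at *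
    generalize ((h⁻¹ : GL (Fin k → Fin a) F) : Matrix (Fin k → Fin a) (Fin k → Fin a) F) = H' at *
    generalize (t : Matrix (Fin k → Fin a) (Fin k → Fin a) F) = T at *
    generalize ((t⁻¹ : GL (Fin k → Fin a) F) : Matrix (Fin k → Fin a) (Fin k → Fin a) F) = T' at *
    calc T' * H * slot i x = T' * (H * slot i x * H') * H := by
          simp only [mul_assoc]; rw [hH2, mul_one]
      _ = T' * (T * slot i x * T') * H := by rw [e]
      _ = (T' * T) * slot i x * (T' * H) := by simp only [mul_assoc]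
      _ = slot i x * (T' * H) := by rw [hT2, one_mul]
  obtain ⟨l, hl⟩ := scalar_of_comm_slots _ hcomm
  have hl0 : l ≠ 0 := by
    rintro rfl
    rw [zero_smul] at hl
    have h5 : (c : Matrix (Fin k → Fin a) (Fin k → Fin a) F) *
        ((c⁻¹ : GL (Fin k → Fin a) F) : Matrix (Fin k → Fin a) (Fin k → Fin a) F) = 1 := by
      rw [← Units.val_mul, mul_inv_cancel, Units.val_one]
    rw [hl, zero_mul] at h5
    exact zero_ne_one h5
  have hcmem : c ∈ tensorWreathStandard a k F := by
    let s : GL (Fin a) F := ⟨l • 1, l⁻¹ • 1, by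
      rw [Matrix.smul_mul, Matrix.mul_smul, mul_one, smul_smul, mul_inv_cancel₀ hl0, one_smul], by
      rw [Matrix.smul_mul, Matrix.mul_smul, mul_one, smul_smul, inv_mul_cancel₀ hl0, one_smul]⟩
    have hcs : c = wn0T (Function.update (fun _ : Fin k => (1 : GL (Fin a) F)) ⟨0, hk⟩ s) := by
      apply Units.ext
      rw [hl]
      show _ = pt (fun i => ((Function.update (fun _ : Fin k => (1 : GL (Fin a) F)) ⟨0, hk⟩ s i :
        GL (Fin a) F) : Matrix (Fin a) (Fin a) F))
      have e1 : (fun i => ((Function.update (fun _ : Fin k => (1 : GL (Fin a) F)) ⟨0, hk⟩ s i :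
          GL (Fin a) F) : Matrix (Fin a) (Fin a) F)) =
          Function.update (fun _ : Fin k => (1 : Matrix (Fin a) (Fin a) F)) ⟨0, hk⟩ (l • 1) := by
        funext i
        by_cases hi : i = ⟨0, hk⟩
        · rw [hi, Function.update_self, Function.update_self]
        · rw [Function.update_of_ne hi, Function.update_of_ne hi, Units.val_one]
      rw [e1, pt_update_smul]
      have e2 : Function.update (fun _ : Fin k => (1 : Matrix (Fin a) (Fin a) F)) ⟨0, hk⟩ 1
          = fun _ => 1 := by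
        funext i
        by_cases hi : i = ⟨0, hk⟩
        · rw [hi, Function.update_self]
        · rw [Function.update_of_ne hi]
      rw [e2, pt_one]
    rw [hcs]
    exact hT _
  have hfin : g = wn0Pi σ * (t * c) := by
    rw [hc, hh]; group
  rw [hfin]
  exact mul_mem hπ (mul_mem (hT ys) hcmem)

end Cfsg.Agent.Lib.Helper77.AschG
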