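import Cfsg.Agent.Lib.Helper77.AschG.Defs

set_option autoImplicit false

namespace Cfsg.Agent.Lib.Helper77.AschG

open Cfsg Cfsg.Geo Cfsg.Agent.Lib.Helper77.Asch
open scoped MatrixGroups Matrix

variable {n : ℕ} {F : Type*} [Field F]

theorem li_sc_val (c : Fˣ) :
    ((sc c : GL (Fin n) F) : Matrix (Fin n) (Fin n) F) = (c : F) • (1 : Matrix (Fin n) (Fin n) F) := by
  simp [sc, Matrix.smul_one_eq_diagonal]

theorem li_sc_inj (hn : 0 < n) {c d : Fˣ} (h : (sc c : GL (Fin n) F) = sc d) : c = d := by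
  have h1 := congrArg (fun g : GL (Fin n) F =>
    (g : Matrix (Fin n) (Fin n) F) ⟨0, hn⟩ ⟨0, hn⟩) h
  simp only [li_sc_val, Matrix.smul_apply, Matrix.one_apply_eq, smul_eq_mul, mul_one] at h1
  exact Units.ext h1

theorem li_sc_mul (c d : Fˣ) : (sc (c * d) : GL (Fin n) F) = sc c * sc d := by
  unfold sc
  rw [map_mul]

theorem li_uniq (hn : 0 < n) {x t : GL (Fin n) F} {c d : Fˣ} (h1 : x * t = sc c * (t * x))
    (h2 : x * t = sc d * (t * x)) : c = d :=
  li_sc_inj hn (mul_right_cancel (h1.symm.trans h2))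

/-- the scalar `c` with `x t = c t x` -/
noncomputable def liC (N : Subgroup (GL (Fin n) F)) (hab : ⁅N, N⁆ ≤ scalars (Fin n) F)
    (t : GL (Fin n) F) (ht : t ∈ N) (x : N) : Fˣ :=
  Classical.choose (ex1_comm N hab ht x.2)

theorem liC_spec (N : Subgroup (GL (Fin n) F)) (hab : ⁅N, N⁆ ≤ scalars (Fin n) F)
    (t : GL (Fin n) F) (ht : t ∈ N) (x : N) :
    (x : GL (Fin n) F) * t = sc (liC N hab t ht x) * (t * (x : GL (Fin n) F)) :=
  (Classical.choose_spec (ex1_comm N hab ht x.2)).2

/-- the character `x ↦ c` with `x t = c t x` -/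
noncomputable def liChi (hn : 0 < n) (N : Subgroup (GL (Fin n) F))
    (hab : ⁅N, N⁆ ≤ scalars (Fin n) F) (t : GL (Fin n) F) (ht : t ∈ N) : N →* F where
  toFun x := ((liC N hab t ht x : Fˣ) : F)
  map_one' := by
    have : liC N hab t ht 1 = 1 := by
      apply li_uniq hn (liC_spec N hab t ht 1)
      rw [ex1_sc_one]; simp
    rw [this, Units.val_one]
  map_mul' x y := by
    have : liC N hab t ht (x * y) = liC N hab t ht x * liC N hab t ht y := by
      apply li_uniq hn (liC_spec N hab t ht (x * y))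
      have hx := liC_spec N hab t ht x
      have hy := liC_spec N hab t ht y
      rw [Subgroup.coe_mul, mul_assoc, hy, ← mul_assoc, ex1_sc_comm, mul_assoc, ← mul_assoc _ t,
        hx, li_sc_mul, ex1_sc_comm (liC N hab t ht y) (sc (liC N hab t ht x))]
      simp only [mul_assoc]
    rw [this, Units.val_mul]

theorem liChi_spec (hn : 0 < n) (N : Subgroup (GL (Fin n) F)) (hab : ⁅N, N⁆ ≤ scalars (Fin n) F)
    (t : GL (Fin n) F) (ht : t ∈ N) (x : N) :
    ((x : GL (Fin n) F) : Matrix (Fin n) (Fin n) F) * (t : Matrix (Fin n) (Fin n) F) =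
      liChi hn N hab t ht x • ((t : Matrix (Fin n) (Fin n) F) *
        ((x : GL (Fin n) F) : Matrix (Fin n) (Fin n) F)) := by
  have h := congrArg (fun g : GL (Fin n) F => (g : Matrix (Fin n) (Fin n) F)) (liC_spec N hab t ht x)
  simp only [Units.val_mul, li_sc_val, Matrix.smul_mul, Matrix.one_mul] at h
  exact h

theorem li_mod_scalars (hn : 0 < n) (N : Subgroup (GL (Fin n) F)) (hab : ⁅N, N⁆ ≤ scalars (Fin n) F)
    (hN : ActsAbsolutelyIrreducibly (matrixSet N)) {ι : Type*} (t : ι → GL (Fin n) F) (ht : ∀ i, t i ∈ N)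
    (hinj : ∀ i j, (t i)⁻¹ * t j ∈ scalars (Fin n) F → i = j) :
    LinearIndependent F (fun i => ((t i : GL (Fin n) F) : Matrix (Fin n) (Fin n) F)) := by
  classical
  -- the characters are pairwise different
  have hχ : Function.Injective (fun i => liChi hn N hab (t i) (ht i)) := by
    intro i j hij
    apply hinj
    apply mem_scalars_of_commute hn N hN
    intro x hx
    have hc : liC N hab (t i) (ht i) ⟨x, hx⟩ = liC N hab (t j) (ht j) ⟨x, hx⟩ := by
      apply Units.ext
      exact DFunLike.congr_fun hij ⟨x, hx⟩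
    have h1 := liC_spec N hab (t i) (ht i) ⟨x, hx⟩
    have h2 := liC_spec N hab (t j) (ht j) ⟨x, hx⟩
    rw [← hc] at h2
    simp only at h1 h2
    set c := liC N hab (t i) (ht i) ⟨x, hx⟩
    -- x * ti = sc c * (ti * x), x * tj = sc c * (tj * x)
    have h3 : (t i)⁻¹ * x = sc c * (x * (t i)⁻¹) := by
      have : x = (t i) * (sc c * (x * (t i)⁻¹)) := by
        rw [← mul_assoc, ex1_sc_comm, mul_assoc, ← mul_assoc (t i), ← mul_assoc, ← mul_assoc,
          mul_assoc (sc c), ← h1]
        simp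
      rw [inv_mul_eq_iff_eq_mul]
      exact this
    have h4 : x * t j = sc c * (t j * x) := h2
    -- (ti⁻¹ tj) x = ti⁻¹ (sc c)⁻¹ x tj = (sc c)⁻¹ ti⁻¹ x tj = x ti⁻¹ tj
    have h5 : t j * x = (sc c)⁻¹ * (x * t j) := by rw [h4, inv_mul_cancel_left]
    have hinv : (sc c : GL (Fin n) F)⁻¹ = sc c⁻¹ := by unfold sc; rw [map_inv]
    calc (t i)⁻¹ * t j * x = (t i)⁻¹ * ((sc c)⁻¹ * (x * t j)) := by rw [mul_assoc, h5]
      _ = (sc c)⁻¹ * ((t i)⁻¹ * x) * t j := by
          rw [hinv, ← mul_assoc, ex1_sc_comm c⁻¹ (t i)⁻¹]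
          simp only [mul_assoc]
      _ = x * ((t i)⁻¹ * t j) := by
          rw [h3, inv_mul_cancel_left, mul_assoc]
  have hli : LinearIndependent F (fun i => (liChi hn N hab (t i) (ht i) : N → F)) :=
    (linearIndependent_monoidHom N F).comp _ hχ
  rw [linearIndependent_iff'] at hli ⊢
  intro s g hsum i hi
  -- conjugate
  have hconj : ∀ x : N, ∑ j ∈ s, (g j * liChi hn N hab (t j) (ht j) x) •
      ((t j : GL (Fin n) F) : Matrix (Fin n) (Fin n) F) = 0 := by
    intro x
    have h1 : ((x : GL (Fin n) F) : Matrix (Fin n) (Fin n) F) *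
        (∑ j ∈ s, g j • ((t j : GL (Fin n) F) : Matrix (Fin n) (Fin n) F)) = 0 := by
      rw [hsum, mul_zero]
    rw [Finset.mul_sum] at h1
    have h2 : (∑ j ∈ s, (g j * liChi hn N hab (t j) (ht j) x) •
        ((t j : GL (Fin n) F) : Matrix (Fin n) (Fin n) F)) *
        ((x : GL (Fin n) F) : Matrix (Fin n) (Fin n) F) = 0 := by
      rw [← h1, Finset.sum_mul]
      apply Finset.sum_congr rfl
      intro j _
      rw [Matrix.mul_smul, liChi_spec hn N hab (t j) (ht j) x, Matrix.smul_mul, smul_smul]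
    have h3 := congrArg (fun M => M * (((x : GL (Fin n) F)⁻¹ : GL (Fin n) F) :
      Matrix (Fin n) (Fin n) F)) h2
    simp only [zero_mul, mul_assoc] at h3
    rw [← Units.val_mul, mul_inv_cancel, Units.val_one, mul_one] at h3
    exact h3
  -- entries
  have hent : ∀ k l : Fin n, g i * ((t i : GL (Fin n) F) : Matrix (Fin n) (Fin n) F) k l = 0 := by
    intro k l
    apply hli s (fun j => g j * ((t j : GL (Fin n) F) : Matrix (Fin n) (Fin n) F) k l) _ i hi
    funext x
    have h1 := congrFun (congrFun (hconj x) k) l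
    simp only [Matrix.sum_apply, Matrix.smul_apply, smul_eq_mul, Matrix.zero_apply] at h1
    simp only [Finset.sum_apply, Pi.smul_apply, smul_eq_mul, Pi.zero_apply]
    rw [← h1]
    apply Finset.sum_congr rfl
    intro j _
    ring
  by_contra hg
  have hzero : ((t i : GL (Fin n) F) : Matrix (Fin n) (Fin n) F) = 0 := by
    ext k l
    rcases mul_eq_zero.1 (hent k l) with h | h
    · exact absurd h hg
    · exact h
  have h2 := (t i).isUnit
  rw [hzero] at h2
  have : Nonempty (Fin n) := ⟨⟨0, hn⟩⟩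
  exact not_isUnit_zero h2

end Cfsg.Agent.Lib.Helper77.AschG
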