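import Cfsg.Agent.Lib.Helper77.AschG.Defs
import Cfsg.Agent.Lib.Helper77.AschG.LI

/-! Ladder ASCHG, rung BIL: an invariant symmetric or alternating form by averaging. -/

set_option autoImplicit false

namespace Cfsg.Agent.Lib.Helper77.AschG

open Cfsg Cfsg.Geo Cfsg.Agent.Lib.Helper77.Asch
open scoped MatrixGroups Matrix

variable {n : ℕ} {F : Type*} [Field F]

/-- the bilinear form of a matrix -/
def bilB (g : Matrix (Fin n) (Fin n) F) (u v : Fin n → F) : F := u ⬝ᵥ g *ᵥ v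

theorem bil_bilinear (g : Matrix (Fin n) (Fin n) F) : IsBilinearForm (bilB g) where
  add_left x y v := by unfold bilB; rw [add_dotProduct]
  smul_left c x v := by unfold bilB; rw [smul_dotProduct, smul_eq_mul]
  add_right v x y := by unfold bilB; rw [Matrix.mulVec_add, dotProduct_add]
  smul_right c v x := by unfold bilB; rw [Matrix.mulVec_smul, dotProduct_smul, smul_eq_mul]

theorem bil_swap (g : Matrix (Fin n) (Fin n) F) (u v : Fin n → F) : bilB g u v = bilB gᵀ v u := by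
  unfold bilB
  rw [Matrix.dotProduct_mulVec, ← Matrix.mulVec_transpose, dotProduct_comm]

theorem bil_inv (g s : Matrix (Fin n) (Fin n) F) (u v : Fin n → F) :
    bilB g (s *ᵥ u) (s *ᵥ v) = bilB (sᵀ * g * s) u v := by
  unfold bilB
  rw [← Matrix.mulVec_mulVec, ← Matrix.mulVec_mulVec, Matrix.dotProduct_mulVec u sᵀ,
    Matrix.vecMul_transpose]

theorem bil_nondeg (g : Matrix (Fin n) (Fin n) F) (c : F) (hc : c ≠ 0) (hg : gᵀ = c • g)
    (hker : ∀ v, g *ᵥ v = 0 → v = 0) : IsNondegenerateForm (bilB g) := by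
  intro v hv
  have h1 : g *ᵥ v ≠ 0 := fun h => hv (hker v h)
  obtain ⟨i, hi⟩ : ∃ i, (g *ᵥ v) i ≠ 0 := by
    by_contra hcon
    push Not at hcon
    exact h1 (funext hcon)
  have h2 : bilB g (Pi.single i 1) v ≠ 0 := by
    unfold bilB
    rw [single_dotProduct, one_mul]
    exact hi
  refine ⟨⟨_, h2⟩, ⟨Pi.single i 1, ?_⟩⟩
  rw [bil_swap, hg]
  unfold bilB at h2 ⊢
  rw [Matrix.smul_mulVec, dotProduct_smul, smul_eq_mul]
  exact mul_ne_zero hc h2

theorem bil_ker (R : Subgroup (GL (Fin n) F)) (hR : ActsIrreducibly (matrixSet R))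
    (g : Matrix (Fin n) (Fin n) F) (hg0 : g ≠ 0)
    (hinv : ∀ y ∈ R, (y : Matrix (Fin n) (Fin n) F)ᵀ * g * (y : Matrix (Fin n) (Fin n) F) = g) :
    ∀ v, g *ᵥ v = 0 → v = 0 := by
  have h := hR (LinearMap.ker (Matrix.toLin' g)) (by
    rintro _ ⟨y, hy, rfl⟩ _ ⟨v, hv, rfl⟩
    rw [SetLike.mem_coe, LinearMap.mem_ker, Matrix.toLin'_apply] at hv
    rw [LinearMap.mem_ker, Matrix.toLin'_apply, Matrix.toLin'_apply]
    have h1 : ((y⁻¹ : GL (Fin n) F) : Matrix (Fin n) (Fin n) F)ᵀ * (y : Matrix (Fin n) (Fin n) F)ᵀ = 1 := by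
      rw [← Matrix.transpose_mul, ← Units.val_mul, mul_inv_cancel, Units.val_one, Matrix.transpose_one]
    calc g *ᵥ ((y : Matrix (Fin n) (Fin n) F) *ᵥ v)
        = (((y⁻¹ : GL (Fin n) F) : Matrix (Fin n) (Fin n) F)ᵀ * (y : Matrix (Fin n) (Fin n) F)ᵀ) *ᵥ
            (g *ᵥ ((y : Matrix (Fin n) (Fin n) F) *ᵥ v)) := by rw [h1, Matrix.one_mulVec]
      _ = ((y⁻¹ : GL (Fin n) F) : Matrix (Fin n) (Fin n) F)ᵀ *ᵥ
            (((y : Matrix (Fin n) (Fin n) F)ᵀ * g * (y : Matrix (Fin n) (Fin n) F)) *ᵥ v) := by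
          simp only [Matrix.mulVec_mulVec, Matrix.mul_assoc]
      _ = 0 := by rw [hinv y hy, hv, Matrix.mulVec_zero])
  rcases h with h | h
  · intro v hv
    have h3 : v ∈ LinearMap.ker (Matrix.toLin' g) := by
      rw [LinearMap.mem_ker, Matrix.toLin'_apply]; exact hv
    rw [h] at h3
    exact (Submodule.mem_bot F).mp h3
  · exfalso
    apply hg0
    have h3 : Matrix.toLin' g = 0 := LinearMap.ker_eq_top.mp h
    exact (LinearEquiv.map_eq_zero_iff _).mp h3

theorem bil_sym (h2 : (2 : F) ≠ 0) (R : Subgroup (GL (Fin n) F)) (hR : ActsIrreducibly (matrixSet R))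
    (g : Matrix (Fin n) (Fin n) F) (hg0 : g ≠ 0) (hsym : gᵀ = g)
    (hinv : ∀ y ∈ R, (y : Matrix (Fin n) (Fin n) F)ᵀ * g * (y : Matrix (Fin n) (Fin n) F) = g) :
    ∃ Q : (Fin n → F) → F, IsNondegenerateQuadraticForm Q ∧ FixesQuadForm (matrixSet R) Q := by
  have hb := bil_bilinear g
  have hpolar : QuadraticMap.polar (fun v => 2⁻¹ * bilB g v v) = bilB g := by
    funext u v
    unfold QuadraticMap.polar
    have h3 : bilB g v u = bilB g u v := by rw [bil_swap g v u, hsym]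
    beta_reduce
    rw [hb.add_left, hb.add_right, hb.add_right, h3]
    field_simp
    ring
  refine ⟨fun v => 2⁻¹ * bilB g v v, ⟨?_, ?_, ?_⟩, ?_⟩
  · intro c v
    rw [hb.smul_left, hb.smul_right]
    ring
  · rw [hpolar]; exact hb
  · rw [hpolar]
    exact bil_nondeg g 1 one_ne_zero (by rw [hsym, one_smul]) (bil_ker R hR g hg0 hinv)
  · rintro _ ⟨y, hy, rfl⟩ v
    simp only
    rw [bil_inv, hinv y hy]

theorem bil_skew (h2 : (2 : F) ≠ 0) (R : Subgroup (GL (Fin n) F)) (hR : ActsIrreducibly (matrixSet R))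
    (g : Matrix (Fin n) (Fin n) F) (hg0 : g ≠ 0) (hskew : gᵀ = -g)
    (hinv : ∀ y ∈ R, (y : Matrix (Fin n) (Fin n) F)ᵀ * g * (y : Matrix (Fin n) (Fin n) F) = g) :
    ∃ f : (Fin n → F) → (Fin n → F) → F, IsSymplecticForm f ∧ FixesForm (matrixSet R) f := by
  have hb := bil_bilinear g
  have hsk : ∀ v w, bilB g v w = - bilB g w v := by
    intro v w
    rw [bil_swap g v w, hskew]
    unfold bilB
    rw [Matrix.neg_mulVec, dotProduct_neg]
  refine ⟨bilB g, ⟨hb, hsk, ?_, ?_⟩, ?_⟩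
  · intro v
    have h3 := hsk v v
    have h4 : (2 : F) * bilB g v v = 0 := by linear_combination h3
    exact (mul_eq_zero.mp h4).resolve_left h2
  · exact bil_nondeg g (-1) (neg_ne_zero.mpr one_ne_zero) (by rw [hskew, neg_one_smul])
      (bil_ker R hR g hg0 hinv)
  · rintro _ ⟨y, hy, rfl⟩ u v
    rw [bil_inv, hinv y hy]

theorem bil_of_inv (h2 : (2 : F) ≠ 0) (R : Subgroup (GL (Fin n) F)) (hR : ActsIrreducibly (matrixSet R))
    (g : Matrix (Fin n) (Fin n) F) (hg0 : g ≠ 0)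
    (hinv : ∀ y ∈ R, (y : Matrix (Fin n) (Fin n) F)ᵀ * g * (y : Matrix (Fin n) (Fin n) F) = g) :
    (∃ Q : (Fin n → F) → F, IsNondegenerateQuadraticForm Q ∧ FixesQuadForm (matrixSet R) Q) ∨
    (∃ f : (Fin n → F) → (Fin n → F) → F, IsSymplecticForm f ∧ FixesForm (matrixSet R) f) := by
  by_cases hs : g + gᵀ = 0
  · right
    exact bil_skew h2 R hR g hg0 (by rw [eq_neg_iff_add_eq_zero, add_comm]; exact hs) hinv
  · left
    refine bil_sym h2 R hR (g + gᵀ) hs (by rw [Matrix.transpose_add, Matrix.transpose_transpose, add_comm]) ?_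
    intro y hy
    have h3 := hinv y hy
    have h4 := congrArg Matrix.transpose h3
    rw [Matrix.transpose_mul, Matrix.transpose_mul, Matrix.transpose_transpose, ← Matrix.mul_assoc] at h4
    rw [Matrix.mul_add, Matrix.add_mul, h3, h4]

theorem bil_exists_inv [Finite F] (hn : 0 < n) (R : Subgroup (GL (Fin n) F))
    (hab : ⁅R, R⁆ ≤ scalars (Fin n) F) (hR : ActsAbsolutelyIrreducibly (matrixSet R))
    (hz : ∀ z ∈ R, z ∈ scalars (Fin n) F → z ^ 2 = 1) :
    ∃ g : Matrix (Fin n) (Fin n) F, g ≠ 0 ∧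
      ∀ y ∈ R, (y : Matrix (Fin n) (Fin n) F)ᵀ * g * (y : Matrix (Fin n) (Fin n) F) = g := by
  classical
  let S : Subgroup R := (scalars (Fin n) F).subgroupOf R
  have : Fintype (R ⧸ S) := Fintype.ofFinite _
  let t : R ⧸ S → GL (Fin n) F := fun q => ((Quotient.out q : R) : GL (Fin n) F)
  have ht : ∀ q, t q ∈ R := fun q => (Quotient.out q).2
  have hinj : ∀ i j, (t i)⁻¹ * t j ∈ scalars (Fin n) F → i = j := by
    intro i j h
    have h1 : (Quotient.out i : R)⁻¹ * Quotient.out j ∈ S := by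
      rw [Subgroup.mem_subgroupOf]; exact h
    have h2 := QuotientGroup.eq.mpr h1
    rwa [QuotientGroup.out_eq', QuotientGroup.out_eq'] at h2
  have hli := li_mod_scalars hn R hab hR t ht hinj
  rw [Fintype.linearIndependent_iff] at hli
  have hsc : ∀ h ∈ R, h ∈ scalars (Fin n) F →
      ∃ c : F, c * c = 1 ∧ (h : Matrix (Fin n) (Fin n) F) = c • (1 : Matrix (Fin n) (Fin n) F) := by
    intro h hh hhz
    obtain ⟨c, hc⟩ := (mem_scalars_iff h).1 hhz
    refine ⟨c, ?_, hc⟩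
    have h1 := congrArg (fun u : GL (Fin n) F => (u : Matrix (Fin n) (Fin n) F) ⟨0, hn⟩ ⟨0, hn⟩) (hz h hh hhz)
    simp only [pow_two, Units.val_mul, hc, Units.val_one] at h1
    simpa using h1
  let φ : Matrix (Fin n) (Fin n) F → Matrix (Fin n) (Fin n) F → Matrix (Fin n) (Fin n) F :=
    fun Y x => xᵀ * Y * x
  have hφ : ∀ Y, ∀ y ∈ R, (y : Matrix (Fin n) (Fin n) F)ᵀ * (∑ q, φ Y (t q)) * (y : Matrix (Fin n) (Fin n) F)
      = ∑ q, φ Y (t q) := by
    intro Y y hy
    let σ : R ⧸ S → R ⧸ S := fun q => (QuotientGroup.mk (Quotient.out q * ⟨y, hy⟩) : R ⧸ S)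
    have hσ : Function.Injective σ := by
      intro q p hqp
      have h1 := QuotientGroup.eq.mp hqp
      rw [Subgroup.mem_subgroupOf] at h1
      apply hinj
      have h2 : (y⁻¹ * ((t q)⁻¹ * t p) * y) ∈ scalars (Fin n) F := by
        convert h1 using 1
        simp only [Subgroup.coe_mul, Subgroup.coe_inv, t]
        group
      have h3 := scalars_central _ h2 y
      have h4 : (t q)⁻¹ * t p = y⁻¹ * ((t q)⁻¹ * t p) * y := by
        have : y * (y⁻¹ * ((t q)⁻¹ * t p) * y) = ((t q)⁻¹ * t p) * y := by group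
        rw [this] at h3
        exact mul_right_cancel h3
      rw [h4]; exact h2
    have hσb : Function.Bijective σ := Finite.injective_iff_bijective.mp hσ
    rw [Finset.mul_sum, Finset.sum_mul, ← hσb.sum_comp (fun q => φ Y (t q))]
    refine Finset.sum_congr rfl fun q _ => ?_
    obtain ⟨h, hh⟩ := QuotientGroup.mk_out_eq_mul S (Quotient.out q * ⟨y, hy⟩)
    obtain ⟨c, hc1, hc2⟩ := hsc (h : R) (h : R).2 (Subgroup.mem_subgroupOf.mp h.2)
    have h5 : (t (σ q) : Matrix (Fin n) (Fin n) F) =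
        c • ((t q : Matrix (Fin n) (Fin n) F) * (y : Matrix (Fin n) (Fin n) F)) := by
      have h6 : t (σ q) = t q * y * ((h : R) : GL (Fin n) F) := by
        show ((Quotient.out (σ q) : R) : GL (Fin n) F) = _
        rw [show Quotient.out (σ q) = Quotient.out q * ⟨y, hy⟩ * h from hh]
        rfl
      rw [h6, Units.val_mul, Units.val_mul, hc2]
      simp
    show _ = (t (σ q) : Matrix (Fin n) (Fin n) F)ᵀ * Y * (t (σ q) : Matrix (Fin n) (Fin n) F)
    rw [h5]
    simp only [φ, Matrix.transpose_smul, Matrix.transpose_mul, Matrix.smul_mul, Matrix.mul_smul, smul_smul,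
      hc1, one_smul, Matrix.mul_assoc]
  by_contra hcon
  have hzero : ∀ Y, ∑ q, φ Y (t q) = 0 := by
    intro Y
    by_contra h
    exact hcon ⟨_, h, hφ Y⟩
  have hall : ∀ a i q, (t q : Matrix (Fin n) (Fin n) F) a i = 0 := by
    intro a i
    apply hli (fun q => (t q : Matrix (Fin n) (Fin n) F) a i)
    ext b j
    have h1 := congrFun (congrFun (hzero (Matrix.single a b 1)) i) j
    rw [Matrix.sum_apply] at h1 ⊢
    rw [Matrix.zero_apply] at h1 ⊢
    rw [← h1]
    refine Finset.sum_congr rfl fun q _ => ?_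
    show (t q : Matrix (Fin n) (Fin n) F) a i * (t q : Matrix (Fin n) (Fin n) F) b j =
      ((t q : Matrix (Fin n) (Fin n) F)ᵀ * Matrix.single a b (1 : F) * (t q : Matrix (Fin n) (Fin n) F) :
        Matrix (Fin n) (Fin n) F) i j
    rw [Matrix.mul_apply, Finset.sum_eq_single b]
    · rw [Matrix.mul_single_apply_same, mul_one, Matrix.transpose_apply]
    · intro k _ hk
      rw [Matrix.mul_single_apply_of_ne _ _ _ _ _ hk, zero_mul]
    · intro h
      exact absurd (Finset.mem_univ b) h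
  have h0 : (t (QuotientGroup.mk 1) : Matrix (Fin n) (Fin n) F) = 0 := by
    ext a i
    exact hall a i _
  have h1 : (t (QuotientGroup.mk 1) : Matrix (Fin n) (Fin n) F) *
      ((t (QuotientGroup.mk 1))⁻¹ : GL (Fin n) F) = 1 := Units.mul_inv _
  rw [h0, Matrix.zero_mul] at h1
  have h2 := congrFun (congrFun h1 ⟨0, hn⟩) ⟨0, hn⟩
  simp at h2

/-- BIL. -/
theorem exists_bilinear [Finite F] (hn : 0 < n) (h2 : (2 : F) ≠ 0) (R : Subgroup (GL (Fin n) F))
    (hab : ⁅R, R⁆ ≤ scalars (Fin n) F) (hR : ActsAbsolutelyIrreducibly (matrixSet R))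
    (hz : ∀ z ∈ R, z ∈ scalars (Fin n) F → z ^ 2 = 1) :
    (∃ Q : (Fin n → F) → F, IsNondegenerateQuadraticForm Q ∧ FixesQuadForm (matrixSet R) Q) ∨
    (∃ f : (Fin n → F) → (Fin n → F) → F, IsSymplecticForm f ∧ FixesForm (matrixSet R) f) := by
  obtain ⟨g, hg0, hinv⟩ := bil_exists_inv hn R hab hR hz
  exact bil_of_inv h2 R hR.1 g hg0 hinv

end Cfsg.Agent.Lib.Helper77.AschG
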