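import Cfsg.Agent.Lib.Helper77.AschG.Defs
import Cfsg.Agent.Lib.Helper5.AschC.IND

set_option autoImplicit false

namespace Cfsg.Agent.Lib.Helper77.AschG

open Cfsg Cfsg.Geo Cfsg.Agent.Lib.Helper77.Asch
open scoped MatrixGroups Matrix

variable {n : ℕ} {F : Type*} [Field F]

open Cfsg.Agent.Lib.Helper5.AschC in
/-- CARDR.  `|R| = |Z(R)| n^2`. -/
theorem card_expSub [Finite F] (hn : 0 < n) (N R : Subgroup (GL (Fin n) F)) (hsup : R ⊔ scalars (Fin n) F = N)
    (hab : ⁅N, N⁆ ≤ scalars (Fin n) F) (hN : ActsAbsolutelyIrreducibly (matrixSet N)) :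
    Nat.card R = Nat.card (Subgroup.center R) * n ^ 2 := by
  classical
  haveI : Nonempty (Fin n) := ⟨⟨0, hn⟩⟩
  haveI : Fintype F := Fintype.ofFinite F
  haveI hZn : (scalars (Fin n) F).Normal :=
    ⟨fun z hz g => by rw [ind_central z hz g, mul_assoc, mul_inv_cancel, mul_one]; exact hz⟩
  have hZ : scalars (Fin n) F ≤ N := by rw [← hsup]; exact le_sup_right
  have hcen : Subgroup.center R = (scalars (Fin n) F).subgroupOf R := by
    ext x
    rw [Subgroup.mem_center_iff, Subgroup.mem_subgroupOf]
    constructor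
    · intro hx
      have hle : N ≤ Subgroup.centralizer {(x : GL (Fin n) F)} := by
        rw [← hsup]
        apply sup_le
        · intro y hy
          rw [Subgroup.mem_centralizer_singleton_iff]
          exact congrArg Subtype.val (hx ⟨y, hy⟩)
        · intro z hz
          rw [Subgroup.mem_centralizer_singleton_iff]
          exact (ind_central z hz _).symm
      obtain ⟨c, hc⟩ := hN.2 ((x : GL (Fin n) F) : Matrix (Fin n) (Fin n) F) (by
        rintro _ ⟨y, hy, rfl⟩
        have h := Subgroup.mem_centralizer_singleton_iff.1 (hle hy)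
        rw [← Units.val_mul, ← Units.val_mul]
        exact congrArg _ h.symm)
      have hc0 : c ≠ 0 := by
        rintro rfl
        rw [zero_smul] at hc
        exact Units.ne_zero _ hc
      exact (mem_scalars_iff _).2 ⟨Units.mk0 c hc0, hc⟩
    · intro hx y
      apply Subtype.ext
      exact ind_central _ hx _
  have h1 : (scalars (Fin n) F).relIndex R = n ^ 2 := by
    rw [← Subgroup.relIndex_sup_right, hsup]
    exact relIndex_eq_sq hn N hZ hab hN
  rw [hcen, ← h1, mul_comm]
  exact (Subgroup.index_mul_card _).symm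

end Cfsg.Agent.Lib.Helper77.AschG
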