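import Cfsg.Agent.Lib.Helper77.AschG.Defs

set_option autoImplicit false

namespace Cfsg.Agent.Lib.Helper77.AschG

open Cfsg Cfsg.Geo Cfsg.Agent.Lib.Helper77.Asch
open scoped MatrixGroups Matrix

variable {n : ℕ} {F : Type*} [Field F]

/-- CEN. -/
theorem mem_center_iff' (hn : 0 < n) (R : Subgroup (GL (Fin n) F)) (hR : ActsAbsolutelyIrreducibly (matrixSet R)) (x : R) :
    x ∈ Subgroup.center R ↔ (x : GL (Fin n) F) ∈ scalars (Fin n) F := by
  constructor
  · intro hx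
    rw [Subgroup.mem_center_iff] at hx
    apply mem_scalars_of_commute hn R hR
    intro y hy
    exact (congrArg Subtype.val (hx ⟨y, hy⟩)).symm
  · intro hx
    rw [Subgroup.mem_center_iff]
    intro g
    apply Subtype.ext
    exact ex1_central x.1 hx g.1

theorem cen_sc_inj (hn : 0 < n) {c d : Fˣ} (h : (sc c : GL (Fin n) F) = sc d) : c = d := by
  have h1 : (sc (c * d⁻¹) : GL (Fin n) F) = 1 := by
    have : (sc (c * d⁻¹) : GL (Fin n) F) = sc c * (sc d)⁻¹ := by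
      unfold sc; rw [map_mul, map_inv]
    rw [this, h, mul_inv_cancel]
  have h2 := hs_sc_eq_one hn _ h1
  exact mul_inv_eq_one.1 h2

/-- CEN. -/
theorem card_center (hn : 0 < n) (N R : Subgroup (GL (Fin n) F)) (s : ℕ) (hs : 0 < s)
    (hmem : ∀ g, g ∈ R ↔ g ∈ N ∧ g ^ s = 1) (hZ : scalars (Fin n) F ≤ N)
    (hR : ActsAbsolutelyIrreducibly (matrixSet R)) (w : Fˣ) (hw : orderOf w = s) :
    Nat.card (Subgroup.center R) = s := by
  haveI : NeZero s := ⟨hs.ne'⟩
  have hprim : IsPrimitiveRoot (w : F) s := by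
    rw [IsPrimitiveRoot.coe_units_iff, ← hw]
    exact IsPrimitiveRoot.orderOf w
  have hcard : Nat.card (rootsOfUnity s F) = s := hprim.card_rootsOfUnity
  rw [← hcard]
  symm
  apply Nat.card_congr
  have hscR : ∀ c : rootsOfUnity s F, (sc (c : Fˣ) : GL (Fin n) F) ∈ R := by
    intro c
    rw [hmem]
    refine ⟨hZ (ex1_sc_mem _), ?_⟩
    rw [ex1_sc_pow, (mem_rootsOfUnity _ _).1 c.2, ex1_sc_one]
  refine Equiv.ofBijective (fun c : rootsOfUnity s F =>
    (⟨⟨sc (c : Fˣ), hscR c⟩, (mem_center_iff' hn R hR _).2 (ex1_sc_mem _)⟩ : Subgroup.center R))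
    ⟨?_, ?_⟩
  · intro c d hcd
    have h1 : (sc (c : Fˣ) : GL (Fin n) F) = sc (d : Fˣ) :=
      congrArg (fun z : Subgroup.center R => (z.1.1 : GL (Fin n) F)) hcd
    exact Subtype.ext (cen_sc_inj hn h1)
  · rintro ⟨x, hx⟩
    obtain ⟨c, hc⟩ := (mem_center_iff' hn R hR x).1 hx
    have hc' : (sc c : GL (Fin n) F) = x.1 := hc
    have hcs : c ^ s = 1 := by
      apply hs_sc_eq_one hn
      rw [← ex1_sc_pow, hc']
      exact ((hmem x.1).1 x.2).2
    refine ⟨⟨c, (mem_rootsOfUnity _ _).2 hcs⟩, ?_⟩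
    apply Subtype.ext
    apply Subtype.ext
    exact hc'

end Cfsg.Agent.Lib.Helper77.AschG
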