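import Cfsg.Agent.Lib.Helper77.AschG.Defs

set_option autoImplicit false

namespace Cfsg.Agent.Lib.Helper77.AschG

open Cfsg Cfsg.Geo Cfsg.Agent.Lib.Helper77.Asch
open scoped MatrixGroups Matrix

variable {n : ℕ} {F : Type*} [Field F]

/-- among `α`, `β`, `α β` one is a square (finite field) -/
theorem exp2_sq_cases [Finite F] (α β : Fˣ) :
    (∃ d : Fˣ, α = d ^ 2) ∨ (∃ d : Fˣ, β = d ^ 2) ∨ (∃ d : Fˣ, α * β = d ^ 2) := by
  obtain ⟨γ, hγ⟩ := IsCyclic.exists_generator (α := Fˣ)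
  obtain ⟨i, rfl⟩ := Subgroup.mem_zpowers_iff.1 (hγ α)
  obtain ⟨j, rfl⟩ := Subgroup.mem_zpowers_iff.1 (hγ β)
  rcases Int.even_or_odd' i with ⟨k, rfl | rfl⟩
  · left
    exact ⟨γ ^ k, by rw [← zpow_natCast, ← zpow_mul]; congr 1; push_cast; ring⟩
  · rcases Int.even_or_odd' j with ⟨l, rfl | rfl⟩
    · right; left
      exact ⟨γ ^ l, by rw [← zpow_natCast, ← zpow_mul]; congr 1; push_cast; ring⟩
    · right; right
      exact ⟨γ ^ (k + l + 1), by
        rw [← zpow_natCast, ← zpow_mul, ← zpow_add]; congr 1; push_cast; ring⟩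

theorem exp2_sc_mul (c d : Fˣ) : (sc c : GL (Fin n) F) * sc d = sc (c * d) := by
  unfold sc
  rw [map_mul]

/-- EXP2. -/
theorem exists_expSub_two [Finite F] (h2 : 2 ≤ n)
    (H N : Subgroup (GL (Fin n) F)) (hm : MinOver H (scalars (Fin n) F) N) (hab : ⁅N, N⁆ ≤ scalars (Fin n) F)
    (hN : ActsAbsolutelyIrreducibly (matrixSet N)) (hexp : ∀ x ∈ N, x ^ 2 ∈ scalars (Fin n) F) :
    ∃ R : Subgroup (GL (Fin n) F), R ⊔ scalars (Fin n) F = N ∧ NormBy H R ∧ ∀ g, g ∈ R ↔ g ∈ N ∧ g ^ 4 = 1 := by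
  have hn0 : 0 < n := by omega
  have hZN : scalars (Fin n) F ≤ N := hm.lt.le
  -- commutation with a central involution
  have hpair : ∀ x ∈ N, ∀ y ∈ N, ∃ z : GL (Fin n) F, (∀ g : GL (Fin n) F, Commute g z) ∧ z ^ 2 = 1 ∧
      y * x = z * (x * y) := by
    intro x hx y hy
    obtain ⟨c, _, hxy⟩ := ex1_comm N hab hx hy
    refine ⟨sc c, fun g => ex1_sc_comm c g, ?_, hxy⟩
    have h1 := ex1_pow_right x y (sc c) (fun g => ex1_sc_comm c g) hxy 2
    have h3 : y * x ^ 2 = x ^ 2 * y := ex1_central _ (hexp x hx) y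
    rw [h3] at h1
    exact (mul_eq_right.1 h1.symm)
  have hpow : ∀ x ∈ N, ∀ y ∈ N, (x * y) ^ 4 = x ^ 4 * y ^ 4 := by
    intro x hx y hy
    obtain ⟨z, hz, hz2, hxy⟩ := hpair x hx y hy
    rw [ex1_mul_pow x y z hz hxy 4]
    have : ∑ i ∈ Finset.range 4, i = 2 * 3 := by decide
    rw [this, pow_mul, hz2, one_pow, one_mul]
  have hscal : ∀ x : GL (Fin n) F, (∀ y ∈ N, y * x = x * y) → x ∈ scalars (Fin n) F := by
    intro x hx
    obtain ⟨c, hc⟩ := hN.2 (x : Matrix (Fin n) (Fin n) F) (by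
      rintro s ⟨g, hg, rfl⟩
      have := congrArg Units.val (hx g hg)
      simpa using this.symm)
    exact ex1_mem_scalars hn0 x c hc
  let R : Subgroup (GL (Fin n) F) :=
    { carrier := {x | x ∈ N ∧ x ^ 4 = 1}
      mul_mem' := fun {a b} ha hb => ⟨N.mul_mem ha.1 hb.1, by
        rw [hpow a ha.1 b hb.1, ha.2, hb.2, one_mul]⟩
      one_mem' := ⟨N.one_mem, one_pow 4⟩
      inv_mem' := fun {a} ha => ⟨N.inv_mem ha.1, by rw [inv_pow, ha.2, inv_one]⟩ }
  have hRN : R ≤ N := fun x hx => hx.1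
  have hRnorm : NormBy H R := fun h hh x hx =>
    ⟨hm.norm h hh x hx.1, by rw [conj_pow, hx.2]; simp⟩
  have hsupnorm : NormBy H (R ⊔ scalars (Fin n) F) := by
    intro h hh x hx
    have h1 : (R ⊔ scalars (Fin n) F).map (MulAut.conj h).toMonoidHom ≤ R ⊔ scalars (Fin n) F := by
      rw [Subgroup.map_sup]
      apply sup_le
      · rintro _ ⟨r, hr, rfl⟩
        exact (le_sup_left : R ≤ _) (hRnorm h hh r hr)
      · rintro _ ⟨z, hz, rfl⟩
        apply (le_sup_right : scalars (Fin n) F ≤ R ⊔ scalars (Fin n) F)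
        have : (MulAut.conj h).toMonoidHom z = z := by
          simp only [MulEquiv.coe_toMonoidHom, MulAut.conj_apply]
          rw [ex1_central z hz h, mul_assoc, mul_inv_cancel, mul_one]
        rw [this]
        exact hz
    exact h1 ⟨x, hx, rfl⟩
  rcases hm.min (R ⊔ scalars (Fin n) F) le_sup_right (sup_le hRN hZN) hsupnorm with h | h
  · exfalso
    have hRZ : R ≤ scalars (Fin n) F := le_sup_left.trans h.le
    -- a non-central element and a partner
    obtain ⟨x, hx, hxZ⟩ := SetLike.exists_of_lt hm.lt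
    have hex : ∃ y ∈ N, y * x ≠ x * y := by
      by_contra hcon
      push Not at hcon
      exact hxZ (hscal x hcon)
    obtain ⟨y, hy, hyx⟩ := hex
    obtain ⟨z, hz, hz2, hxy⟩ := hpair x hx y hy
    obtain ⟨α, hα⟩ := hexp x hx
    obtain ⟨β, hβ⟩ := hexp y hy
    have hα' : (sc α : GL (Fin n) F) = x ^ 2 := hα
    have hβ' : (sc β : GL (Fin n) F) = y ^ 2 := hβ
    -- scaling lemma
    have hscale : ∀ (u : GL (Fin n) F) (d : Fˣ), u ∈ N → (sc d⁻¹ * u) ^ 4 = 1 →
        u ∈ scalars (Fin n) F := by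
      intro u d hu h4
      have h5 : (sc d⁻¹ * u : GL (Fin n) F) ∈ scalars (Fin n) F :=
        hRZ ⟨N.mul_mem (hZN (ex1_sc_mem _)) hu, h4⟩
      have h6 : u = sc d * (sc d⁻¹ * u) := by
        rw [← mul_assoc, exp2_sc_mul, mul_inv_cancel, ex1_sc_one, one_mul]
      rw [h6]
      exact (scalars (Fin n) F).mul_mem (ex1_sc_mem _) h5
    have hsq : ∀ (u : GL (Fin n) F) (d : Fˣ), (sc d⁻¹ * u) ^ 2 = sc (d ^ 2)⁻¹ * u ^ 2 := by
      intro u d
      rw [(show Commute (sc d⁻¹ : GL (Fin n) F) u from (ex1_sc_comm d⁻¹ u).symm).mul_pow, ex1_sc_pow,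
        inv_pow]
    rcases exp2_sq_cases α β with ⟨d, hd⟩ | ⟨d, hd⟩ | ⟨d, hd⟩
    · apply hxZ
      apply hscale x d hx
      have : (4 : ℕ) = 2 * 2 := rfl
      rw [this, pow_mul, hsq, ← hα', hd, exp2_sc_mul, inv_mul_cancel, ex1_sc_one, one_pow]
    · apply hyx
      have hyZ : y ∈ scalars (Fin n) F := by
        apply hscale y d hy
        have : (4 : ℕ) = 2 * 2 := rfl
        rw [this, pow_mul, hsq, ← hβ', hd, exp2_sc_mul, inv_mul_cancel, ex1_sc_one, one_pow]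
      exact (ex1_central y hyZ x).symm
    · apply hyx
      have hxyZ : x * y ∈ scalars (Fin n) F := by
        apply hscale (x * y) d (N.mul_mem hx hy)
        have h4 : (4 : ℕ) = 2 * 2 := rfl
        have h5 : (x * y) ^ 2 = z * sc (α * β) := by
          rw [ex1_mul_pow x y z hz hxy 2, ← exp2_sc_mul, hα', hβ']
          have : ∑ i ∈ Finset.range 2, i = 1 := by decide
          rw [this, pow_one]
        rw [h4, pow_mul, hsq, h5, hd, ← mul_assoc, (hz (sc (d ^ 2)⁻¹)).eq, mul_assoc, exp2_sc_mul,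
          inv_mul_cancel, ex1_sc_one, mul_one, hz2]
      have h7 := ex1_central _ hxyZ x
      -- x * (x * y) = (x * y) * x
      have h8 : x * (x * y) = x * (y * x) := by rw [h7, mul_assoc]
      exact (mul_left_cancel h8).symm
  · exact ⟨R, h, hRnorm, fun g => Iff.rfl⟩

end Cfsg.Agent.Lib.Helper77.AschG
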