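import Cfsg.Agent.Lib.Helper77.AschG.Defs

set_option autoImplicit false

namespace Cfsg.Agent.Lib.Helper77.AschG

open Cfsg Cfsg.Geo Cfsg.Agent.Lib.Helper77.Asch
open scoped MatrixGroups Matrix

variable {n : ℕ} {F : Type*} [Field F]

/-- `sc` is compatible with powers. -/
theorem expn_sc_pow (w : Fˣ) (k : ℕ) : (sc w : GL (Fin n) F) ^ k = sc (w ^ k) := by
  unfold sc
  rw [map_pow]

/-- `sc` is injective at one for `0 < n`. -/
theorem expn_sc_eq_one (hn : 0 < n) (w : Fˣ) (h : (sc w : GL (Fin n) F) = 1) : w = 1 := by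
  have h1 := congrArg (fun g : GL (Fin n) F => (g : Matrix (Fin n) (Fin n) F) ⟨0, hn⟩ ⟨0, hn⟩) h
  apply Units.ext
  simpa [sc] using h1

/-- EXPN. -/
theorem exponent_expSub (hn : 0 < n) (R : Subgroup (GL (Fin n) F)) (s : ℕ) (hexp : ∀ g ∈ R, g ^ s = 1) (w : Fˣ)
    (hw : orderOf w = s) (hwR : (sc w : GL (Fin n) F) ∈ R) : Monoid.exponent R = s := by
  apply Nat.dvd_antisymm
  · apply Monoid.exponent_dvd_of_forall_pow_eq_one
    intro g
    exact Subtype.ext (hexp g g.2)
  · have h1 : orderOf (⟨sc w, hwR⟩ : R) ∣ Monoid.exponent R := Monoid.order_dvd_exponent _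
    have h2 : orderOf (⟨sc w, hwR⟩ : R) = s := by
      rw [← hw, ← Subgroup.orderOf_coe]
      show orderOf (sc w : GL (Fin n) F) = orderOf w
      apply orderOf_eq_orderOf_iff.2
      intro k
      rw [expn_sc_pow]
      constructor
      · intro h
        exact expn_sc_eq_one hn _ h
      · intro h
        rw [h]
        unfold sc
        rw [map_one]
    rwa [h2] at h1

end Cfsg.Agent.Lib.Helper77.AschG
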