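import Cfsg.Agent.Lib.Helper77.AschG.Defs

set_option autoImplicit false

namespace Cfsg.Agent.Lib.Helper77.AschG

open Cfsg Cfsg.Geo Cfsg.Agent.Lib.Helper77.Asch
open scoped MatrixGroups Matrix

variable {n : ℕ} {F : Type*} [Field F]

theorem pair_sc_eq_one (hn : 0 < n) (c : Fˣ) (h : (sc c : GL (Fin n) F) = 1) : c = 1 := by
  have h1 := congrArg (fun g : GL (Fin n) F => (g : Matrix (Fin n) (Fin n) F) ⟨0, hn⟩ ⟨0, hn⟩) h
  apply Units.ext
  simpa [sc, Matrix.scalar_apply] using h1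

theorem pair_scalar (N : Subgroup (GL (Fin n) F)) (hab : ⁅N, N⁆ ≤ scalars (Fin n) F)
    (x y : GL (Fin n) F) (hx : x ∈ N) (hy : y ∈ N) : ∃ c : Fˣ, x * y = sc c * (y * x) := by
  obtain ⟨c, -, h⟩ := ex1_comm N hab hy hx
  exact ⟨c, h⟩

theorem pair_pow (hn : 0 < n) (r : ℕ) (x y : GL (Fin n) F) (c : Fˣ) (h : x * y = sc c * (y * x))
    (hx : x ^ r ∈ scalars (Fin n) F) : c ^ r = 1 := by
  have h1 := ex1_pow_left y x (sc c) (fun g => ex1_sc_comm c g) h r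
  have h2 : y * x ^ r = x ^ r * y := ex1_central _ hx y
  rw [← h2, ex1_sc_pow] at h1
  have h3 : (sc (c ^ r) : GL (Fin n) F) = 1 := by
    have h4 : 1 * (y * x ^ r) = sc (c ^ r) * (y * x ^ r) := by rw [one_mul]; exact h1
    exact (mul_right_cancel h4).symm
  exact pair_sc_eq_one hn _ h3

theorem exists_noncomm (h2 : 2 ≤ n) (N : Subgroup (GL (Fin n) F)) (hab : ⁅N, N⁆ ≤ scalars (Fin n) F)
    (hN : ActsAbsolutelyIrreducibly (matrixSet N)) :
    ∃ x ∈ N, ∃ y ∈ N, ∃ c : Fˣ, c ≠ 1 ∧ x * y = sc c * (y * x) := by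
  by_contra hcon
  have hcomm : ∀ x ∈ N, ∀ y ∈ N, x * y = y * x := by
    intro x hx y hy
    obtain ⟨c, hc⟩ := pair_scalar N hab x y hx hy
    by_cases hc1 : c = 1
    · rw [hc, hc1, ex1_sc_one, one_mul]
    · exact absurd ⟨x, hx, y, hy, c, hc1, hc⟩ hcon
  have hle : N ≤ scalars (Fin n) F := fun g hg =>
    mem_scalars_of_commute (by omega) N hN g (fun x hx => hcomm g hg x hx)
  exact not_irr_of_le_scalars h2 N hle hN.1

end Cfsg.Agent.Lib.Helper77.AschG
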