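import Cfsg.Agent.Lib.Helper77.AschG.Defs
import Cfsg.Agent.Lib.Helper77.AschG.PAIR

set_option autoImplicit false

namespace Cfsg.Agent.Lib.Helper77.AschG

open Cfsg Cfsg.Geo Cfsg.Agent.Lib.Helper77.Asch
open scoped MatrixGroups Matrix

variable {n : ℕ} {F : Type*} [Field F]

theorem exists_expSub_odd [Finite F] (h2 : 2 ≤ n) (r : ℕ) (hr : r.Prime) (hr2 : r ≠ 2)
    (H N : Subgroup (GL (Fin n) F)) (hm : MinOver H (scalars (Fin n) F) N) (hab : ⁅N, N⁆ ≤ scalars (Fin n) F)
    (hN : ActsAbsolutelyIrreducibly (matrixSet N)) (hexp : ∀ x ∈ N, x ^ r ∈ scalars (Fin n) F) :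
    ∃ R : Subgroup (GL (Fin n) F), R ⊔ scalars (Fin n) F = N ∧ NormBy H R ∧ ∀ g, g ∈ R ↔ g ∈ N ∧ g ^ r = 1 := by
  have hn0 : 0 < n := by omega
  have hZN : scalars (Fin n) F ≤ N := hm.lt.le
  have hodd : Odd r := hr.odd_of_ne_two hr2
  have hpow : ∀ x ∈ N, ∀ y ∈ N, (x * y) ^ r = x ^ r * y ^ r := by
    intro x hx y hy
    obtain ⟨c, -, hxy⟩ := ex1_comm N hab hx hy
    have hc : c ^ r = 1 := pair_pow hn0 r y x c hxy (hexp y hy)
    rw [ex1_mul_pow x y (sc c) (fun g => ex1_sc_comm c g) hxy r]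
    obtain ⟨j, hj⟩ := ex1_dvd_sum (n := r) hodd
    rw [hj, pow_mul, ex1_sc_pow, hc, ex1_sc_one, one_pow, one_mul]
  have hscal : ∀ x : GL (Fin n) F, (∀ y ∈ N, y * x = x * y) → x ∈ scalars (Fin n) F := by
    intro x hx
    exact mem_scalars_of_commute hn0 N hN x (fun y hy => (hx y hy).symm)
  let R : Subgroup (GL (Fin n) F) :=
    { carrier := {x | x ∈ N ∧ x ^ r = 1}
      mul_mem' := fun {a b} ha hb => ⟨N.mul_mem ha.1 hb.1, by
        rw [hpow a ha.1 b hb.1, ha.2, hb.2, one_mul]⟩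
      one_mem' := ⟨N.one_mem, one_pow r⟩
      inv_mem' := fun {a} ha => ⟨N.inv_mem ha.1, by rw [inv_pow, ha.2, inv_one]⟩ }
  have hRN : R ≤ N := fun x hx => hx.1
  have hRnorm : NormBy H R := fun h hh x hx =>
    ⟨hm.norm h hh x hx.1, by rw [conj_pow, hx.2]; simp⟩
  have hsupnorm : NormBy H (R ⊔ scalars (Fin n) F) := by
    intro h hh x hx
    have h1 : (R ⊔ scalars (Fin n) F).map (MulAut.conj h).toMonoidHom ≤ R ⊔ scalars (Fin n) F := by
      rw [Subgroup.map_sup]
      apply sup_le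
      · rintro _ ⟨r, hr, rfl⟩
        exact (le_sup_left : R ≤ _) (hRnorm h hh r hr)
      · rintro _ ⟨z, hz, rfl⟩
        apply (le_sup_right : scalars (Fin n) F ≤ R ⊔ scalars (Fin n) F)
        have : (MulAut.conj h).toMonoidHom z = z := by
          simp only [MulEquiv.coe_toMonoidHom, MulAut.conj_apply]
          rw [ex1_central z hz h, mul_assoc, mul_inv_cancel, mul_one]
        rw [this]
        exact hz
    exact h1 ⟨x, hx, rfl⟩
  rcases hm.min (R ⊔ scalars (Fin n) F) le_sup_right (sup_le hRN hZN) hsupnorm with h | h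
  · exfalso
    have hRZ : R ≤ scalars (Fin n) F := le_sup_left.trans h.le
    have hcyc : IsCyclic ↥(scalars (Fin n) F) :=
      isCyclic_of_surjective
        (Units.map (Matrix.scalar (Fin n) : F →+* Matrix (Fin n) (Fin n) F).toMonoidHom).rangeRestrict
        (MonoidHom.rangeRestrict_surjective _)
    let f : ↥N →* ↥(scalars (Fin n) F) :=
      { toFun := fun x => ⟨(x : GL (Fin n) F) ^ r, hexp x x.2⟩
        map_one' := Subtype.ext (one_pow r)
        map_mul' := fun a b => Subtype.ext (hpow a a.2 b b.2) }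
    have hker : f.ker ≤ Subgroup.center ↥N := by
      intro x hx
      rw [MonoidHom.mem_ker] at hx
      have h1 : (x : GL (Fin n) F) ^ r = 1 := congrArg Subtype.val hx
      have hxZ : (x : GL (Fin n) F) ∈ scalars (Fin n) F := hRZ ⟨x.2, h1⟩
      rw [Subgroup.mem_center_iff]
      intro g
      exact Subtype.ext (ex1_central _ hxZ g)
    have hcommN' := MonoidHom.isMulCommutative_of_isCyclic_of_ker_le_center f hker
    have hcommN : ∀ a b : ↥N, a * b = b * a := fun a b => hcommN'.is_comm.comm a b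
    have hNZ : N ≤ scalars (Fin n) F := by
      intro x hx
      apply hscal
      intro y hy
      exact congrArg Subtype.val (hcommN ⟨y, hy⟩ ⟨x, hx⟩)
    exact absurd hNZ hm.lt.not_ge
  · exact ⟨R, h, hRnorm, fun g => Iff.rfl⟩

end Cfsg.Agent.Lib.Helper77.AschG
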