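import Cfsg.Agent.Lib.Helper77.AschG.Defs

set_option autoImplicit false
set_option linter.style.haveILetI false

namespace Cfsg.Agent.Lib.Helper77.AschG

open Cfsg Cfsg.Geo Cfsg.Agent.Lib.Helper77.Asch
open scoped MatrixGroups Matrix

variable {n : ℕ} {F : Type*} [Field F]

theorem field_cases_four [Fintype F] (w : Fˣ) (hw : orderOf w = 4) :
    (∃ F₀ : Subfield F, F₀ ≠ ⊤ ∧ (w : F) ∈ F₀) ∨
    (∃ p : ℕ, 2 ≠ p ∧ IsMinimalFieldFor 4 p 1 F) ∨
    (∃ σ : F ≃+* F, σ ≠ RingEquiv.refl F ∧ (∀ a, σ (σ a) = a) ∧ σ (w : F) = (w : F)⁻¹) := by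
  classical
  obtain ⟨p, hchar⟩ := CharP.exists F
  obtain ⟨e, hp, hcard⟩ := FiniteField.card F p
  haveI : Fact p.Prime := ⟨hp⟩
  have he0 : 0 < (e : ℕ) := e.pos
  have hpe : 1 < p ^ (e : ℕ) := Nat.one_lt_pow he0.ne' hp.one_lt
  have hdvd : 4 ∣ p ^ (e : ℕ) - 1 := by
    rw [← hw, ← hcard, ← Fintype.card_units]
    exact orderOf_dvd_card
  have hnp : 2 ≠ p := by
    rintro rfl
    have h1 : 2 ∣ 2 ^ (e : ℕ) := dvd_pow_self 2 he0.ne'
    have h2' : 2 ∣ 2 ^ (e : ℕ) - 1 := Dvd.dvd.trans (by norm_num) hdvd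
    have h2 : 2 ∣ 1 := by
      have := (Nat.dvd_sub h1 h2')
      rwa [Nat.sub_sub_self hpe.le] at this
    omega
  by_cases hex : ∃ d : ℕ, 0 < d ∧ d < e ∧ 4 ∣ p ^ d - 1
  · left
    obtain ⟨d, hd0, hde, hd⟩ := hex
    refine ⟨(iterateFrobenius F p d).eqLocusField (RingHom.id F), ?_, ?_⟩
    · intro htop
      obtain ⟨a, ha⟩ := fc_exists_ne (F := F) p e d hp hcard hd0 hde
      apply ha
      have : a ∈ (iterateFrobenius F p d).eqLocusField (RingHom.id F) := htop ▸ Subfield.mem_top a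
      exact this
    · change (w : F) ^ p ^ d = w
      have hpd : 1 ≤ p ^ d := Nat.one_le_pow _ _ hp.pos
      have h1 : w ^ (p ^ d - 1) = 1 := orderOf_dvd_iff_pow_eq_one.1 (hw ▸ hd)
      have h2 : w ^ p ^ d = w := by
        conv_lhs => rw [← Nat.sub_add_cancel hpd, pow_succ, h1, one_mul]
      exact_mod_cast congrArg Units.val h2
  · right
    push Not at hex
    have hmin : IsMinimalFieldFor 4 p e F := ⟨hp, hchar, hcard, hdvd, fun d h0 h1 => hex d h0 h1⟩
    rcases Nat.eq_or_lt_of_le (Nat.succ_le_of_lt he0) with he1 | he1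
    · left
      have he1' : (e : ℕ) = 1 := he1.symm
      rw [he1'] at hmin
      exact ⟨p, hnp, hmin⟩
    · right
      have he1' : 1 < (e : ℕ) := he1
      have h41 : ¬ 4 ∣ p ^ 1 - 1 := hex 1 one_pos he1'
      rw [pow_one] at h41
      have hpodd : p % 2 = 1 := by
        rcases hp.eq_two_or_odd with h | h
        · exact absurd h.symm hnp
        · exact h
      have hp1 : 1 ≤ p := hp.pos
      have hp4 : p % 4 = 3 := by omega
      obtain ⟨m, hm⟩ : ∃ m, p = 4 * m + 3 := ⟨p / 4, by omega⟩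
      have hk : (e : ℕ) = 1 + 1 := by
        by_contra hne
        have h2e : 2 < (e : ℕ) := by omega
        apply hex 2 (by norm_num) h2e
        have h5 : p ^ 2 = 4 * (4 * m ^ 2 + 6 * m + 2) + 1 := by rw [hm]; ring
        rw [h5, Nat.add_sub_cancel]
        exact Dvd.intro _ rfl
      refine ⟨iterateFrobeniusEquiv F p 1, ?_, ?_, ?_⟩
      · intro hrefl
        obtain ⟨a, ha⟩ := fc_exists_ne (F := F) p e 1 hp hcard one_pos he1'
        apply ha
        have := congrArg (fun f : F ≃+* F => f a) hrefl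
        exact this
      · intro a
        rw [iterateFrobeniusEquiv_def, iterateFrobeniusEquiv_def, ← pow_mul, ← pow_add, ← hk, ← hcard]
        exact FiniteField.pow_card a
      · rw [iterateFrobeniusEquiv_def]
        have h1 : 4 ∣ p ^ 1 + 1 := by
          rw [pow_one]; omega
        have h2 : w ^ (p ^ 1 + 1) = 1 := orderOf_dvd_iff_pow_eq_one.1 (hw ▸ h1)
        have h3 : w ^ p ^ 1 = w⁻¹ := by
          rw [pow_succ] at h2
          exact eq_inv_of_mul_eq_one_left h2
        have := congrArg Units.val h3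
        simpa using this

end Cfsg.Agent.Lib.Helper77.AschG
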