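import Cfsg.Agent.Lib.Helper77.AschG.Defs

set_option autoImplicit false

namespace Cfsg.Agent.Lib.Helper77.AschG

open Cfsg Cfsg.Geo Cfsg.Agent.Lib.Helper77.Asch
open scoped MatrixGroups Matrix

variable {n : ℕ} {F : Type*} [Field F]

theorem eig_inv {V : Type*} [AddCommGroup V] [Module F V] (f : Module.End F V) (W : Submodule F V)
    (hW : ∀ v ∈ W, f v ∈ W) (S : Finset F) :
    ∀ x ∈ W, Polynomial.aeval f (∏ ζ ∈ S, (Polynomial.X - Polynomial.C ζ)) x ∈ W := by
  classical
  induction S using Finset.induction_on with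
  | empty => intro x hx; simpa using hx
  | insert ζ S hζ ih =>
    intro x hx
    rw [Finset.prod_insert hζ, map_mul, Module.End.mul_apply]
    simp only [map_sub, Polynomial.aeval_X, Polynomial.aeval_C, LinearMap.sub_apply,
      Module.algebraMap_end_apply]
    exact W.sub_mem (hW _ (ih x hx)) (W.smul_mem _ (ih x hx))

/-- a product of `f - ζ` killing a nonzero vector of an invariant subspace gives an eigenvector there -/
theorem eig_prod {V : Type*} [AddCommGroup V] [Module F V] (f : Module.End F V) (W : Submodule F V)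
    (hW : ∀ v ∈ W, f v ∈ W) (S : Finset F) :
    ∀ v ∈ W, v ≠ 0 → Polynomial.aeval f (∏ ζ ∈ S, (Polynomial.X - Polynomial.C ζ)) v = 0 →
      ∃ ζ ∈ S, ∃ u ∈ W, u ≠ 0 ∧ f u = ζ • u := by
  classical
  induction S using Finset.induction_on with
  | empty =>
    intro v _ hv h
    simp at h
    exact absurd h hv
  | insert ζ S hζ ih =>
    intro v hvW hv h
    rw [Finset.prod_insert hζ, map_mul, Module.End.mul_apply] at h
    by_cases hu0 : Polynomial.aeval f (∏ ζ ∈ S, (Polynomial.X - Polynomial.C ζ)) v = 0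
    · obtain ⟨ζ', h1, h2⟩ := ih v hvW hv hu0
      exact ⟨ζ', Finset.mem_insert_of_mem h1, h2⟩
    · refine ⟨ζ, Finset.mem_insert_self _ _, _, eig_inv f W hW S v hvW, hu0, ?_⟩
      simpa [sub_eq_zero] using h

/-- EIG. -/
theorem exists_common_eigenvector (hn : 0 < n) (A : Subgroup (GL (Fin n) F)) (hc : ∀ a ∈ A, ∀ b ∈ A, a * b = b * a)
    (s : ℕ) (hs : 0 < s) (w : Fˣ) (hw : orderOf w = s) (hexp : ∀ a ∈ A, a ^ s = 1) :
    ∃ v : Fin n → F, v ≠ 0 ∧ ∀ a ∈ A, ∃ c : F, c ^ s = 1 ∧ (a : Matrix (Fin n) (Fin n) F) *ᵥ v = c • v := by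
  classical
  obtain ⟨W, hWinv, hW0, hWmin⟩ := cl1_exists_min hn A
  have hprim : IsPrimitiveRoot (w : F) s := by
    have h := IsPrimitiveRoot.orderOf w
    rw [hw] at h
    exact IsPrimitiveRoot.coe_units_iff.2 h
  have hpowT : ∀ (a : GL (Fin n) F) (k : ℕ) (v : Fin n → F), ((cl1T a) ^ k) v = cl1T (a ^ k) v := by
    intro a k
    induction k with
    | zero => intro v; simp [cl1T_one]
    | succ k ih =>
      intro v
      rw [pow_succ, Module.End.mul_apply, ih, pow_succ, cl1T_mul]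
  have key : ∀ a ∈ A, ∃ c : F, c ^ s = 1 ∧ ∀ v ∈ W, cl1T a v = c • v := by
    intro a ha
    obtain ⟨v, hvW, hv0⟩ := Submodule.exists_mem_ne_zero_of_ne_bot hW0
    have hpoly : Polynomial.aeval (cl1T a) (∏ ζ ∈ Polynomial.nthRootsFinset s (1 : F),
        (Polynomial.X - Polynomial.C ζ)) = 0 := by
      rw [← Polynomial.X_pow_sub_one_eq_prod hs hprim]
      simp only [map_sub, map_pow, Polynomial.aeval_X, map_one]
      rw [sub_eq_zero]
      apply LinearMap.ext
      intro v
      rw [hpowT, hexp a ha, cl1T_one, Module.End.one_apply]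
    obtain ⟨ζ, hζ, u, huW, hu0, hfu⟩ := eig_prod (cl1T a) W (hWinv a ha) _ v hvW hv0
      (by rw [hpoly]; rfl)
    refine ⟨ζ, (Polynomial.mem_nthRootsFinset hs 1).1 hζ, ?_⟩
    let E : Submodule F (Fin n → F) :=
      { carrier := {x | x ∈ W ∧ cl1T a x = ζ • x}
        zero_mem' := ⟨W.zero_mem, by simp⟩
        add_mem' := fun {x y} hx hy => ⟨W.add_mem hx.1 hy.1, by rw [map_add, hx.2, hy.2, smul_add]⟩
        smul_mem' := fun c x hx => ⟨W.smul_mem c hx.1, by rw [map_smul, hx.2, smul_comm]⟩ }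
    have hEinv : cl1Inv A E := by
      intro b hb x hx
      refine ⟨hWinv b hb x hx.1, ?_⟩
      rw [← cl1T_mul, hc a ha b hb, cl1T_mul, hx.2, map_smul]
    have hE0 : E ≠ ⊥ := by
      intro h
      have : u ∈ E := ⟨huW, hfu⟩
      rw [h] at this
      exact hu0 ((Submodule.mem_bot F).1 this)
    have hle := hWmin E hEinv hE0
    have hEW : E = W := Submodule.eq_of_le_of_finrank_le (fun x hx => hx.1) hle
    intro x hx
    have : x ∈ E := hEW ▸ hx
    exact this.2
  obtain ⟨v, hvW, hv0⟩ := Submodule.exists_mem_ne_zero_of_ne_bot hW0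
  refine ⟨v, hv0, fun a ha => ?_⟩
  obtain ⟨c, hc1, h⟩ := key a ha
  exact ⟨c, hc1, h v hvW⟩

end Cfsg.Agent.Lib.Helper77.AschG
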