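import Cfsg.Agent.Lib.Helper77.AschG.Defs

set_option autoImplicit false

namespace Cfsg.Agent.Lib.Helper77.AschG

open Cfsg Cfsg.Geo Cfsg.Agent.Lib.Helper77.Asch
open scoped MatrixGroups Matrix

variable {n : ℕ} {F : Type*} [Field F]

/-- MAXAB (abstract). -/
theorem exists_max_abelian {G : Type*} [Group G] [Finite G] (R : Subgroup G) :
    ∃ A : Subgroup G, A ≤ R ∧ (∀ a ∈ A, ∀ b ∈ A, a * b = b * a) ∧
      ∀ x ∈ R, (∀ a ∈ A, x * a = a * x) → x ∈ A := by
  classical
  let S : Set (Subgroup G) := {A | A ≤ R ∧ ∀ a ∈ A, ∀ b ∈ A, a * b = b * a}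
  have hne : S.Nonempty := ⟨⊥, bot_le, by
    intro a ha b hb
    rw [Subgroup.mem_bot] at ha hb
    rw [ha, hb]⟩
  obtain ⟨A, hA⟩ := (Set.toFinite S).exists_maximal hne
  refine ⟨A, hA.prop.1, hA.prop.2, ?_⟩
  intro x hx hxa
  let k : Set G := (A : Set G) ∪ {x}
  have hk : ∀ a ∈ k, ∀ b ∈ k, a * b = b * a := by
    rintro a (ha | ha) b (hb | hb)
    · exact hA.prop.2 a ha b hb
    · rw [Set.mem_singleton_iff] at hb; rw [hb]; exact (hxa a ha).symm
    · rw [Set.mem_singleton_iff] at ha; rw [ha]; exact hxa b hb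
    · rw [Set.mem_singleton_iff] at ha hb; rw [ha, hb]
  have hmem : Subgroup.closure k ∈ S := by
    refine ⟨?_, ?_⟩
    · rw [Subgroup.closure_le]
      rintro a (ha | ha)
      · exact hA.prop.1 ha
      · rw [Set.mem_singleton_iff] at ha; rw [ha]; exact hx
    · intro a ha b hb
      letI := Subgroup.closureCommGroupOfComm hk
      exact congrArg Subtype.val (mul_comm (⟨a, ha⟩ : Subgroup.closure k) ⟨b, hb⟩)
  have hle : A ≤ Subgroup.closure k := fun a ha => Subgroup.subset_closure (Or.inl ha)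
  exact hA.le_of_ge hmem hle (Subgroup.subset_closure (Or.inr rfl))

end Cfsg.Agent.Lib.Helper77.AschG
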