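import Cfsg.Agent.Lib.Helper77.AschG.Defs
import Cfsg.Agent.Lib.Helper77.AschG.MAXAB
import Cfsg.Agent.Lib.Helper77.AschG.EIG

set_option autoImplicit false

namespace Cfsg.Agent.Lib.Helper77.AschG

open Cfsg Cfsg.Geo Cfsg.Agent.Lib.Helper77.Asch
open scoped MatrixGroups Matrix

variable {n : ℕ} {F : Type*} [Field F]

theorem mono_sc_apply (c : Fˣ) (u : Fin n → F) : cl1T (sc c : GL (Fin n) F) u = (c : F) • u := by
  rw [cl1T_apply, hb_sc_coe, Matrix.smul_mulVec, Matrix.one_mulVec]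

/-- same commutation scalar with `a` ⇒ `y'⁻¹ y` commutes with `a`. -/
theorem mono_comm {a y y' : GL (Fin n) F} {c : Fˣ} (h : a * y = sc c * (y * a))
    (h' : a * y' = sc c * (y' * a)) : (y'⁻¹ * y) * a = a * (y'⁻¹ * y) := by
  have h1 : y * a = sc c⁻¹ * (a * y) := by
    rw [h, ← mul_assoc]
    have : (sc c⁻¹ : GL (Fin n) F) * sc c = 1 := by
      unfold sc; rw [← map_mul, inv_mul_cancel, map_one]
    rw [this, one_mul]
  have h2 : y'⁻¹ * a = sc c * (a * y'⁻¹) := by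
    have h3 : y'⁻¹ * (a * y') * y'⁻¹ = y'⁻¹ * (sc c * (y' * a)) * y'⁻¹ := by rw [h']
    have h4 : y'⁻¹ * (a * y') * y'⁻¹ = y'⁻¹ * a := by group
    have h5 : y'⁻¹ * (sc c * (y' * a)) * y'⁻¹ = (y'⁻¹ * sc c) * y' * a * y'⁻¹ := by group
    rw [h4, h5, ex1_sc_comm] at h3
    rw [h3]
    group
  calc (y'⁻¹ * y) * a = y'⁻¹ * (y * a) := by rw [mul_assoc]
    _ = y'⁻¹ * (sc c⁻¹ * (a * y)) := by rw [h1]
    _ = (y'⁻¹ * sc c⁻¹) * (a * y) := by rw [mul_assoc]
    _ = sc c⁻¹ * (y'⁻¹ * a) * y := by rw [ex1_sc_comm]; group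
    _ = sc c⁻¹ * (sc c * (a * y'⁻¹)) * y := by rw [h2]
    _ = (sc c⁻¹ * sc c) * (a * (y'⁻¹ * y)) := by group
    _ = a * (y'⁻¹ * y) := by
        have : (sc c⁻¹ : GL (Fin n) F) * sc c = 1 := by
          unfold sc; rw [← map_mul, inv_mul_cancel, map_one]
        rw [this, one_mul]

/-- MONO. -/
theorem exists_monomial_basis [Finite F] (hn : 0 < n) (R : Subgroup (GL (Fin n) F))
    (hab : ⁅R, R⁆ ≤ scalars (Fin n) F) (hR : ActsIrreducibly (matrixSet R))
    (s : ℕ) (hs : 0 < s) (w : Fˣ) (hw : orderOf w = s) (hexp : ∀ g ∈ R, g ^ s = 1) :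
    ∃ b : Module.Basis (Fin n) F (Fin n → F), IsMonoBasis R s b := by
  classical
  obtain ⟨A, hAR, hAc, hAmax⟩ := exists_max_abelian R
  obtain ⟨v₀, hv₀, hev⟩ := exists_common_eigenvector hn A hAc s hs w hw (fun a ha => hexp a (hAR ha))
  choose χ hχs hχ using hev
  have hχ0 : ∀ a (ha : a ∈ A), χ a ha ≠ 0 := by
    intro a ha h0
    have := hχs a ha
    rw [h0, zero_pow hs.ne'] at this
    exact zero_ne_one this
  -- commutation scalars
  have hpair : ∀ (y : R) (a : A), ∃ c : Fˣ,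
      (a : GL (Fin n) F) * (y : GL (Fin n) F) = sc c * ((y : GL (Fin n) F) * (a : GL (Fin n) F)) := by
    intro y a
    obtain ⟨c, _, hc⟩ := ex1_comm R hab (x := (y : GL (Fin n) F)) (y := (a : GL (Fin n) F)) y.2 (hAR a.2)
    exact ⟨c, hc⟩
  choose κ hκ using hpair
  have hne : ∀ y : R, cl1T (y : GL (Fin n) F) v₀ ≠ 0 := by
    intro y h0
    apply hv₀
    apply cl1T_injective (y : GL (Fin n) F)
    rw [h0, map_zero]
  have hwt : ∀ y : R, cl1T (y : GL (Fin n) F) v₀ ∈ cl2V A (fun a => (κ y a : F) * χ a a.2) := by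
    intro y a
    rw [← cl1T_mul, hκ y a, cl1T_mul, mono_sc_apply, cl1T_mul, cl1T_apply (a : GL (Fin n) F), hχ a a.2,
      map_smul, smul_smul]
  have hinj : ∀ y y' : R, (fun a : A => (κ y a : F) * χ a a.2) = (fun a : A => (κ y' a : F) * χ a a.2) →
      (y' : GL (Fin n) F)⁻¹ * y ∈ A := by
    intro y y' h
    apply hAmax _ (R.mul_mem (R.inv_mem y'.2) y.2)
    intro a ha
    have h1 := congrFun h ⟨a, ha⟩
    have h2 : κ y ⟨a, ha⟩ = κ y' ⟨a, ha⟩ := Units.ext (mul_right_cancel₀ (hχ0 a ha) h1)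
    have h3 := hκ y ⟨a, ha⟩
    have h4 := hκ y' ⟨a, ha⟩
    rw [← h2] at h4
    exact mono_comm h3 h4
  -- the transversal
  set A' : Subgroup R := A.subgroupOf R with hA'
  let t : R ⧸ A' → R := fun q => q.out
  have hψinj : Function.Injective (fun q : R ⧸ A' => (fun a : A => (κ (t q) a : F) * χ a a.2)) := by
    intro q q' h
    have h1 := hinj (t q) (t q') h
    have h2 : (t q')⁻¹ * t q ∈ A' := by
      rw [hA', Subgroup.mem_subgroupOf]
      exact h1
    have h3 : ((t q' : R) : R ⧸ A') = (t q : R) := QuotientGroup.eq.mpr h2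
    rw [QuotientGroup.out_eq', QuotientGroup.out_eq'] at h3
    exact h3.symm
  have hli : LinearIndependent F (fun q : R ⧸ A' => cl1T (t q : GL (Fin n) F) v₀) := by
    have h1 : iSupIndep (fun q : R ⧸ A' => cl2V A (fun a : A => (κ (t q) a : F) * χ a a.2)) :=
      (cl2_indep A).comp hψinj
    exact h1.linearIndependent _ (fun q => hwt (t q)) (fun q => hne (t q))
  -- every `y v₀` is a root of unity times a transversal vector
  have hrep : ∀ y : R, ∃ c : F, c ^ s = 1 ∧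
      cl1T (y : GL (Fin n) F) v₀ = c • cl1T (t (y : R ⧸ A') : GL (Fin n) F) v₀ := by
    intro y
    obtain ⟨h, hh⟩ := QuotientGroup.mk_out_eq_mul A' y
    have hmem : ((h : R) : GL (Fin n) F)⁻¹ ∈ A := A.inv_mem (Subgroup.mem_subgroupOf.mp h.2)
    refine ⟨χ _ hmem, hχs _ hmem, ?_⟩
    have h1 : (y : GL (Fin n) F) = (t (y : R ⧸ A') : GL (Fin n) F) * ((h : R) : GL (Fin n) F)⁻¹ := by
      have : (t (y : R ⧸ A') : GL (Fin n) F) = (y : GL (Fin n) F) * ((h : R) : GL (Fin n) F) :=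
        congrArg Subtype.val hh
      rw [this]
      group
    conv_lhs => rw [h1]
    rw [cl1T_mul, cl1T_apply (((h : R) : GL (Fin n) F)⁻¹), hχ _ hmem, map_smul]
  have hsp : ⊤ ≤ Submodule.span F (Set.range (fun q : R ⧸ A' => cl1T (t q : GL (Fin n) F) v₀)) := by
    have hinv : cl1Inv R (Submodule.span F (Set.range (fun q : R ⧸ A' => cl1T (t q : GL (Fin n) F) v₀))) := by
      intro x hx u hu
      induction hu using Submodule.span_induction with
      | mem u hu =>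
        obtain ⟨q, rfl⟩ := hu
        change cl1T x (cl1T (t q : GL (Fin n) F) v₀) ∈ _
        obtain ⟨c, _, hc⟩ := hrep (⟨x, hx⟩ * t q)
        rw [← cl1T_mul]
        change cl1T ((⟨x, hx⟩ * t q : R) : GL (Fin n) F) v₀ ∈ _
        rw [hc]
        exact Submodule.smul_mem _ _ (Submodule.subset_span ⟨_, rfl⟩)
      | zero => rw [map_zero]; exact Submodule.zero_mem _
      | add u u' _ _ hu hu' => rw [map_add]; exact Submodule.add_mem _ hu hu'
      | smul c u _ hu => rw [map_smul]; exact Submodule.smul_mem _ _ hu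
    rcases (cl1_irr_iff R).mp hR _ hinv with h | h
    · exfalso
      have h1 : cl1T (t ((1 : R) : R ⧸ A') : GL (Fin n) F) v₀ ∈
          Submodule.span F (Set.range (fun q : R ⧸ A' => cl1T (t q : GL (Fin n) F) v₀)) :=
        Submodule.subset_span ⟨_, rfl⟩
      rw [h, Submodule.mem_bot] at h1
      exact hne _ h1
    · rw [h]
  let b₀ : Module.Basis (R ⧸ A') F (Fin n → F) := Module.Basis.mk hli hsp
  have hb₀ : ∀ q, b₀ q = cl1T (t q : GL (Fin n) F) v₀ := fun q => Module.Basis.mk_apply hli hsp q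
  have : Fintype (R ⧸ A') := Fintype.ofFinite _
  have hcard : Fintype.card (R ⧸ A') = n := by
    rw [← Module.finrank_eq_card_basis b₀, Module.finrank_fin_fun]
  let e : R ⧸ A' ≃ Fin n := Fintype.equivFinOfCardEq hcard
  refine ⟨b₀.reindex e, ?_⟩
  intro x hx
  have hc : ∀ j : Fin n, ∃ c : F, c ^ s = 1 ∧
      (x : Matrix (Fin n) (Fin n) F) *ᵥ (b₀.reindex e) j
        = c • (b₀.reindex e) (e ((⟨x, hx⟩ : R) • e.symm j)) := by
    intro j
    obtain ⟨c, hc1, hc2⟩ := hrep (⟨x, hx⟩ * t (e.symm j))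
    refine ⟨c, hc1, ?_⟩
    rw [Module.Basis.reindex_apply, Module.Basis.reindex_apply, Equiv.symm_apply_apply, hb₀, hb₀,
      ← cl1T_apply, ← cl1T_mul]
    have h1 : (((⟨x, hx⟩ * t (e.symm j) : R)) : R ⧸ A') = (⟨x, hx⟩ : R) • e.symm j := by
      conv_rhs => rw [← QuotientGroup.out_eq' (e.symm j)]
      rfl
    rw [← h1]
    exact hc2
  choose c hc1 hc2 using hc
  exact ⟨(e.symm.trans (MulAction.toPerm (⟨x, hx⟩ : R))).trans e, c, hc1, fun j => hc2 j⟩

end Cfsg.Agent.Lib.Helper77.AschG
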