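import Cfsg.Agent.Lib.Helper77.AschG.Defs

set_option autoImplicit false

namespace Cfsg.Agent.Lib.Helper77.AschG

open Cfsg Cfsg.Geo Cfsg.Agent.Lib.Helper77.Asch
open scoped MatrixGroups Matrix

variable {n : ℕ} {F : Type*} [Field F]

/-- MONOR. -/
theorem realisable_of_monomial (R : Subgroup (GL (Fin n) F)) (s : ℕ) (b : Module.Basis (Fin n) F (Fin n → F))
    (hb : IsMonoBasis R s b) (F₀ : Subfield F) (h0 : ∀ c : F, c ^ s = 1 → c ∈ F₀) :
    ∃ B : GL (Fin n) F, ∀ t ∈ matrixSet R, ∀ i j,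
      ((B : Matrix (Fin n) (Fin n) F) * t * ((B⁻¹ : GL (Fin n) F) : Matrix (Fin n) (Fin n) F)) i j ∈ F₀ := by
  classical
  let e := Pi.basisFun F (Fin n)
  let B : GL (Fin n) F := ⟨b.toMatrix e, e.toMatrix b, Module.Basis.toMatrix_mul_toMatrix_flip b e,
    Module.Basis.toMatrix_mul_toMatrix_flip e b⟩
  have hB : (B : Matrix (Fin n) (Fin n) F) = b.toMatrix e := rfl
  have hB' : ((B⁻¹ : GL (Fin n) F) : Matrix (Fin n) (Fin n) F) = e.toMatrix b := rfl
  refine ⟨B, ?_⟩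
  rintro _ ⟨x, hx, rfl⟩ i j
  obtain ⟨π, c, hc, hxb⟩ := hb x hx
  have h1 : (e.toMatrix b) *ᵥ Pi.single j 1 = b j := by
    rw [Matrix.mulVec_single_one]
    ext k
    simp [e, Module.Basis.toMatrix_apply]
  have h2 : ∀ u : Fin n → F, (b.toMatrix e) *ᵥ u = b.repr u := by
    intro u
    have h := Module.Basis.toMatrix_mulVec_repr e b u
    have h' : (e.repr u : Fin n → F) = u := by
      ext k
      exact Pi.basisFun_repr F (Fin n) u k
    rw [h'] at h
    exact h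
  have h3 : ((B : Matrix (Fin n) (Fin n) F) * (x : Matrix (Fin n) (Fin n) F) *
      ((B⁻¹ : GL (Fin n) F) : Matrix (Fin n) (Fin n) F)) i j = b.repr (c j • b (π j)) i := by
    rw [hB, hB', ← hxb j, ← h2, ← h1, Matrix.mulVec_mulVec, Matrix.mulVec_mulVec,
      Matrix.mulVec_single_one]
    rfl
  change ((B : Matrix (Fin n) (Fin n) F) * (x : Matrix (Fin n) (Fin n) F) *
      ((B⁻¹ : GL (Fin n) F) : Matrix (Fin n) (Fin n) F)) i j ∈ F₀
  rw [h3, map_smul, Module.Basis.repr_self, Finsupp.smul_apply, smul_eq_mul]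
  apply F₀.mul_mem (h0 _ (hc j))
  by_cases hij : π j = i
  · rw [hij, Finsupp.single_eq_same]; exact F₀.one_mem
  · rw [Finsupp.single_eq_of_ne (fun h => hij h.symm)]; exact F₀.zero_mem

end Cfsg.Agent.Lib.Helper77.AschG
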