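import Cfsg.Agent.Lib.Helper77.AschG.Defs
import Cfsg.Agent.Lib.Helper5.AschC.IND

set_option autoImplicit false

namespace Cfsg.Agent.Lib.Helper77.AschG

open Cfsg Cfsg.Geo Cfsg.Agent.Lib.Helper77.Asch
open scoped MatrixGroups Matrix

variable {n : ℕ} {F : Type*} [Field F]

open Cfsg.Agent.Lib.Helper5.AschC in
/-- NPOW.  The dimension is a power of `r`. -/
theorem dim_prime_pow [Finite F] (h2 : 2 ≤ n) (r : ℕ) (hr : r.Prime) (N : Subgroup (GL (Fin n) F))
    (hZ : scalars (Fin n) F ≤ N) (hab : ⁅N, N⁆ ≤ scalars (Fin n) F)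
    (hN : ActsAbsolutelyIrreducibly (matrixSet N)) (hexp : ∀ x ∈ N, x ^ r ∈ scalars (Fin n) F) :
    ∃ m : ℕ, 1 ≤ m ∧ n = r ^ m := by
  classical
  haveI : Fintype F := Fintype.ofFinite F
  haveI hZn : (scalars (Fin n) F).Normal :=
    ⟨fun z hz g => by rw [ind_central z hz g, mul_assoc, mul_inv_cancel, mul_one]; exact hz⟩
  haveI : Fact r.Prime := ⟨hr⟩
  have hp : IsPGroup r (N ⧸ (scalars (Fin n) F).subgroupOf N) := by
    intro x
    obtain ⟨y, rfl⟩ := QuotientGroup.mk_surjective x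
    refine ⟨1, ?_⟩
    rw [pow_one, ← QuotientGroup.mk_pow, QuotientGroup.eq_one_iff, Subgroup.mem_subgroupOf]
    simpa using hexp y y.2
  obtain ⟨j, hj⟩ := IsPGroup.iff_card.1 hp
  have hsq : Nat.card (N ⧸ (scalars (Fin n) F).subgroupOf N) = n ^ 2 :=
    relIndex_eq_sq (by omega) N hZ hab hN
  have hd : n ∣ r ^ j := by rw [← hj, hsq]; exact dvd_pow_self n two_ne_zero
  obtain ⟨m, _, hm⟩ := (Nat.dvd_prime_pow hr).1 hd
  refine ⟨m, ?_, hm⟩
  rcases Nat.eq_zero_or_pos m with h0 | h0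
  · subst h0
    simp at hm
    omega
  · exact h0

end Cfsg.Agent.Lib.Helper77.AschG
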