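import Cfsg.Agent.Lib.Helper77.AschG.Defs

set_option autoImplicit false

namespace Cfsg.Agent.Lib.Helper77.AschG

open Cfsg Cfsg.Geo Cfsg.Agent.Lib.Helper77.Asch
open scoped MatrixGroups Matrix

variable {n : ℕ} {F : Type*} [Field F]

/-- ROOT.  c^s = 1 in a field with w of order s ⇒ c is a power of w. -/
theorem eq_pow_of_root (s : ℕ) (hs : 0 < s) (w : Fˣ) (hw : orderOf w = s) (c : F) (hc : c ^ s = 1) :
    ∃ k : ℕ, c = (w : F) ^ k := by
  haveI : NeZero s := ⟨hs.ne'⟩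
  have h1 : IsPrimitiveRoot w s := hw ▸ IsPrimitiveRoot.orderOf w
  have h2 : IsPrimitiveRoot (w : F) s := IsPrimitiveRoot.coe_units_iff.2 h1
  obtain ⟨k, -, hk⟩ := h2.eq_pow_of_pow_eq_one hc
  exact ⟨k, hk.symm⟩

end Cfsg.Agent.Lib.Helper77.AschG
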