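import Cfsg.Agent.Lib.Helper77.AschG.RGRP
import Cfsg.Agent.Lib.Helper77.AschG.PAIR
import Cfsg.Agent.Lib.Helper77.AschG.NPOW
import Cfsg.Agent.Lib.Helper77.AschG.EXPO
import Cfsg.Agent.Lib.Helper77.AschG.EXP2
import Cfsg.Agent.Lib.Helper77.AschG.CEN
import Cfsg.Agent.Lib.Helper77.AschG.CARDR
import Cfsg.Agent.Lib.Helper77.AschG.CHAR
import Cfsg.Agent.Lib.Helper77.AschG.EXPN
import Cfsg.Agent.Lib.Helper77.AschG.MONO
import Cfsg.Agent.Lib.Helper77.AschG.MONOR
import Cfsg.Agent.Lib.Helper77.AschG.MONOU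
import Cfsg.Agent.Lib.Helper77.AschG.BIL
import Cfsg.Agent.Lib.Helper77.AschG.FC4
import Cfsg.Agent.Lib.Helper77.AschG.ROOT
import Cfsg.Agent.Lib.Helper5.AschC.FORMS
import Cfsg.Agent.Lib.Helper38.AschG.Defs

set_option autoImplicit false

namespace Cfsg.Agent.Lib.Helper77.AschG

open Cfsg Cfsg.Geo Cfsg.Agent.Lib.Helper77.Asch Cfsg.Agent.Lib.Helper5.AschC Cfsg.Agent.Lib.Helper38.AschG
open scoped MatrixGroups Matrix

variable {n : ℕ} {F : Type*} [Field F]

theorem casea_c5 [Fintype F] (hn : 0 < n) (H R : Subgroup (GL (Fin n) F)) (hle : H ≤ subgroupNormalizer R)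
    (hRabs : ActsAbsolutelyIrreducibly (matrixSet R)) (s : ℕ) (hs : 0 < s) (w : Fˣ) (hw : orderOf w = s)
    (b : Module.Basis (Fin n) F (Fin n → F)) (hb : IsMonoBasis R s b) (F₀ : Subfield F) (hF₀ : F₀ ≠ ⊤)
    (hwF : (w : F) ∈ F₀) : InGeoG H := by
  have h0 : ∀ c : F, c ^ s = 1 → c ∈ F₀ := by
    intro c hc
    obtain ⟨k, rfl⟩ := eq_pow_of_root s hs w hw c hc
    exact pow_mem hwF k
  obtain ⟨B, hB⟩ := realisable_of_monomial R s b hb F₀ h0
  obtain ⟨F₁, r, hle1, hr, hcard⟩ := exists_prime_subfield F₀ hF₀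
  exact Or.inl (Or.inr (Or.inr (Or.inr (Or.inr (Or.inl ⟨F₁, r, B⁻¹, hr, hcard,
    hle.trans ((normalizer_le_subfield hn R hRabs F₀ B hB).trans (subfieldSubgroup_mono hle1 _))⟩)))))

theorem casea_unitary [Fintype F] (H R : Subgroup (GL (Fin n) F)) (hle : H ≤ subgroupNormalizer R)
    (hRabs : ActsAbsolutelyIrreducibly (matrixSet R)) (s : ℕ) (hs : 0 < s) (w : Fˣ) (hw : orderOf w = s)
    (b : Module.Basis (Fin n) F (Fin n → F)) (hb : IsMonoBasis R s b) (σ : F ≃+* F)
    (h1 : σ ≠ RingEquiv.refl F) (h2 : ∀ a, σ (σ a) = a) (h3 : σ (w : F) = (w : F)⁻¹) : InGeoG H := by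
  have h0 : ∀ c : F, c ^ s = 1 → c * σ c = 1 := by
    intro c hc
    obtain ⟨k, rfl⟩ := eq_pow_of_root s hs w hw c hc
    rw [map_pow, h3, ← mul_pow, mul_inv_cancel₀ w.ne_zero, one_pow]
  obtain ⟨f, hf, hfix⟩ := unitary_of_monomial R s b hb σ h1 h2 h0
  exact Or.inl (Or.inr (Or.inr (Or.inr (Or.inr (Or.inr (Or.inr (Or.inr ⟨σ, f, hf,
    hle.trans (normalizer_le_unitarySim R hRabs σ f hf hfix)⟩)))))))

theorem casea_pgroup (R : Subgroup (GL (Fin n) F)) (r j : ℕ) (hexp : ∀ g ∈ R, g ^ (r ^ j) = 1) : IsPGroup r R := by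
  intro g
  refine ⟨j, ?_⟩
  apply Subtype.ext
  simpa using hexp g g.2

theorem caseA [Fintype F] (h3 : 3 ≤ n) (H N : Subgroup (GL (Fin n) F))
    (hm : MinOver H (scalars (Fin n) F) N) (hab : ⁅N, N⁆ ≤ scalars (Fin n) F)
    (hN : ActsAbsolutelyIrreducibly (matrixSet N)) : InGeoG H := by
  classical
  have hn : 0 < n := by omega
  have h2n : 2 ≤ n := by omega
  have hZc : ∀ z ∈ scalars (Fin n) F, ∀ g : GL (Fin n) F, g * z = z * g :=
    fun z hz g => scalars_central z hz g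
  obtain ⟨r, hr, hexp⟩ := exists_prime_exp H (scalars (Fin n) F) N hZc hm hab
  obtain ⟨x, hx, y, hy, c, hc1, hxy⟩ := exists_noncomm h2n N hab hN
  have hcr : c ^ r = 1 := pair_pow hn r x y c hxy (hexp x hx)
  have hcord : orderOf c = r := by
    have := Fact.mk hr
    exact orderOf_eq_prime hcr hc1
  obtain ⟨m, hm1, hnm⟩ := dim_prime_pow h2n r hr N hm.lt.le hab hN hexp
  have hrn : r ∣ n := by
    rw [hnm]; exact dvd_pow_self r (by omega)
  by_cases hr2 : r = 2
  · subst hr2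
    have h2F : (2 : F) ≠ 0 := by
      intro h2
      apply hc1
      have h4 : ((c : F) - 1) ^ 2 = 0 := by
        have h5 : (c : F) ^ 2 = 1 := by rw [← Units.val_pow_eq_pow_val, hcr, Units.val_one]
        have : ((c : F) - 1) ^ 2 = (c : F) ^ 2 - 2 * (c : F) + 1 := by ring
        rw [this, h5, h2]; 
        have h6 : (1 : F) + 1 = 0 := by rw [one_add_one_eq_two]; exact h2
        linear_combination h6
      have h7 : (c : F) - 1 = 0 := by simpa using h4
      exact Units.ext (by simpa using sub_eq_zero.1 h7)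
    obtain ⟨R, hsup, hnorm, hmem⟩ := exists_expSub_two h2n H N hm hab hN hexp
    have hRabs : ActsAbsolutelyIrreducibly (matrixSet R) := absIrr_of_sup R (by rw [hsup]; exact hN)
    have hRN : R ≤ N := hsup ▸ le_sup_left
    have hRab : ⁅R, R⁆ ≤ scalars (Fin n) F := (Subgroup.commutator_mono hRN hRN).trans hab
    have hle : H ≤ subgroupNormalizer R := le_normalizer_of_normBy hnorm
    have hRexp : ∀ g ∈ R, g ^ 4 = 1 := fun g hg => ((hmem g).1 hg).2
    have heven : Even n := by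
      rw [hnm]; exact (Nat.even_pow.2 ⟨even_two, by omega⟩)
    have h4n : 4 ≤ n := by
      obtain ⟨t, ht⟩ := heven
      omega
    by_cases hw4 : ∃ w : Fˣ, orderOf w = 4
    · obtain ⟨w, hw⟩ := hw4
      obtain ⟨b, hb⟩ := exists_monomial_basis hn R hRab hRabs.1 4 (by norm_num) w hw hRexp
      rcases field_cases_four w hw with ⟨F₀, hF₀, hwF⟩ | ⟨p, hp2, hmin⟩ | ⟨σ, h1, h2', h3'⟩
      · exact casea_c5 hn H R hle hRabs 4 (by norm_num) w hw b hb F₀ hF₀ hwF
      · have hcc : Nat.card (Subgroup.center R) = 4 :=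
          card_center hn N R 4 (by norm_num) hmem hm.lt.le hRabs w hw
        have hcR : Nat.card R = 2 ^ (2 + 2 * m) := by
          rw [card_expSub hn N R hsup hab hN, hcc, hnm]
          ring
        have hwR : (sc w : GL (Fin n) F) ∈ R := by
          rw [hmem]
          refine ⟨hm.lt.le (ex1_sc_mem w), ?_⟩
          rw [ex1_sc_pow, ← hw, pow_orderOf_eq_one, ex1_sc_one]
        refine Or.inr (Or.inl ⟨2, R, hrn, ⟨⟨hr, casea_pgroup R 2 2 (by simpa using hRexp),
          fun A hA hc => char_abelian_cyclic hn H N R hm hN hsup hnorm A hA hc,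
          by rw [exponent_expSub hn R 4 hRexp w hw hwR]; norm_num⟩, hRabs,
          ⟨p, 1, hp2, by rw [hcc]; exact hmin, Or.inr (Or.inl ⟨rfl, rfl, hcc, by simpa using h4n, m, hcR⟩)⟩⟩, hle⟩)
      · exact casea_unitary H R hle hRabs 4 (by norm_num) w hw b hb σ h1 h2' h3'
    · have hz : ∀ z ∈ R, z ∈ scalars (Fin n) F → z ^ 2 = 1 := by
        rintro z hzR ⟨d, rfl⟩
        change (sc d : GL (Fin n) F) ^ 2 = 1
        have h4 : (sc d : GL (Fin n) F) ^ 4 = 1 := hRexp _ hzR
        rw [ex1_sc_pow] at h4 ⊢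
        have hd4 : d ^ 4 = 1 := by
          have h6 : ((sc (d ^ 4) : GL (Fin n) F) : Matrix (Fin n) (Fin n) F) ⟨0, hn⟩ ⟨0, hn⟩ = 1 := by
            rw [h4]; simp
          have h7 : ((sc (d ^ 4) : GL (Fin n) F) : Matrix (Fin n) (Fin n) F)
              = Matrix.scalar (Fin n) (((d ^ 4 : Fˣ) : F)) := rfl
          rw [h7, Matrix.scalar_apply, Matrix.diagonal_apply_eq] at h6
          exact Units.ext h6
        have hdvd : orderOf d ∣ 4 := orderOf_dvd_of_pow_eq_one hd4
        have hne4 : orderOf d ≠ 4 := fun h => hw4 ⟨d, h⟩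
        have hd2 : d ^ 2 = 1 := by
          have : orderOf d ∣ 2 := by
            have h8 : orderOf d ∈ Nat.divisors 4 := Nat.mem_divisors.2 ⟨hdvd, by norm_num⟩
            have h9 : Nat.divisors 4 = {1, 2, 4} := by decide
            rw [h9] at h8
            simp only [Finset.mem_insert, Finset.mem_singleton] at h8
            rcases h8 with h | h | h
            · rw [h]; norm_num
            · rw [h]
            · exact absurd h hne4
          exact orderOf_dvd_iff_pow_eq_one.1 this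
        rw [hd2, ex1_sc_one]
      rcases exists_bilinear hn h2F R hRab hRabs hz with ⟨Q, hQ, hfix⟩ | ⟨f, hf, hfix⟩
      · exact Or.inl (Or.inr (Or.inr (Or.inr (Or.inr (Or.inr (Or.inl ⟨odd_card_of_two_ne_zero h2F, Q, hQ,
          hle.trans (normalizer_le_quadSim h2F R hRabs Q hQ hfix)⟩))))))
      · exact Or.inl (Or.inr (Or.inr (Or.inr (Or.inr (Or.inr (Or.inr (Or.inl ⟨f, hf,
          hle.trans (normalizer_le_sympSim R hRabs f hf hfix)⟩)))))))
  · obtain ⟨R, hsup, hnorm, hmem⟩ := exists_expSub_odd h2n r hr hr2 H N hm hab hN hexp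
    have hRabs : ActsAbsolutelyIrreducibly (matrixSet R) := absIrr_of_sup R (by rw [hsup]; exact hN)
    have hRN : R ≤ N := hsup ▸ le_sup_left
    have hRab : ⁅R, R⁆ ≤ scalars (Fin n) F := (Subgroup.commutator_mono hRN hRN).trans hab
    have hle : H ≤ subgroupNormalizer R := le_normalizer_of_normBy hnorm
    have hRexp : ∀ g ∈ R, g ^ r = 1 := fun g hg => ((hmem g).1 hg).2
    obtain ⟨b, hb⟩ := exists_monomial_basis hn R hRab hRabs.1 r hr.pos c hcord hRexp
    rcases field_cases hr c hcord with ⟨F₀, hF₀, hwF⟩ | ⟨p, e, hnp, hmin, he⟩ | ⟨σ, h1, h2', h3'⟩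
    · exact casea_c5 hn H R hle hRabs r hr.pos c hcord b hb F₀ hF₀ hwF
    · have hcc : Nat.card (Subgroup.center R) = r :=
        card_center hn N R r hr.pos hmem hm.lt.le hRabs c hcord
      have hcR : Nat.card R = r ^ (1 + 2 * m) := by
        rw [card_expSub hn N R hsup hab hN, hcc, hnm]
        ring
      have hwR : (sc c : GL (Fin n) F) ∈ R := by
        rw [hmem]
        refine ⟨hm.lt.le (ex1_sc_mem c), ?_⟩
        rw [ex1_sc_pow, hcr, ex1_sc_one]
      have hodd : Odd r := hr.odd_of_ne_two hr2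
      have hgcd : Nat.gcd 2 r = 1 := by
        exact (Nat.coprime_primes Nat.prime_two hr).2 (Ne.symm hr2)
      refine Or.inr (Or.inl ⟨r, R, hrn, ⟨⟨hr, casea_pgroup R r 1 (by simpa using hRexp),
        fun A hA hc => char_abelian_cyclic hn H N R hm hN hsup hnorm A hA hc,
        by rw [exponent_expSub hn R r hRexp c hcord hwR, hgcd, mul_one]⟩, hRabs,
        ⟨p, e, hnp, by rw [hcc]; exact hmin, Or.inl ⟨hodd, he, hcc, m, hm1, hcR⟩⟩⟩, hle⟩)
    · exact casea_unitary H R hle hRabs r hr.pos c hcord b hb σ h1 h2' h3'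

end Cfsg.Agent.Lib.Helper77.AschG
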