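import Cfsg.Agent.Lib.Helper77.AschG.DefsB

set_option autoImplicit false

namespace Cfsg.Agent.Lib.Helper77.AschG

open Cfsg Cfsg.Geo Cfsg.Agent.Lib.Helper77.Asch Cfsg.Agent.Lib.Helper5.AschC
open scoped MatrixGroups Matrix

variable {n : ℕ} {F : Type*} [Field F]

/-- SPC. -/
theorem spanAlg_conj (Q : Subgroup (GL (Fin n) F)) (g : GL (Fin n) F) :
    spanAlg (Q.map (MulAut.conj g).toMonoidHom) = (spanAlg Q).map (conjA g) := by
  unfold spanAlg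
  rw [AlgHom.map_adjoin]
  congr 1
  ext M
  constructor
  · rintro ⟨_, ⟨x, hx, rfl⟩, rfl⟩
    refine ⟨(x : Matrix (Fin n) (Fin n) F), ⟨x, hx, rfl⟩, ?_⟩
    simp [conjA]
  · rintro ⟨_, ⟨x, hx, rfl⟩, rfl⟩
    refine ⟨g * x * g⁻¹, ⟨x, hx, by simp⟩, ?_⟩
    simp [conjA]

/-- SPC (trivial).  -/
theorem conjA_mul (g h : GL (Fin n) F) (x : Matrix (Fin n) (Fin n) F) : conjA (g * h) x = conjA g (conjA h x) := by
  change ((g * h : GL (Fin n) F) : Matrix (Fin n) (Fin n) F) * x * (((g * h)⁻¹ : GL (Fin n) F) : Matrix (Fin n) (Fin n) F)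
    = (g : Matrix (Fin n) (Fin n) F) * ((h : Matrix (Fin n) (Fin n) F) * x * ((h⁻¹ : GL (Fin n) F) : Matrix (Fin n) (Fin n) F))
      * ((g⁻¹ : GL (Fin n) F) : Matrix (Fin n) (Fin n) F)
  rw [mul_inv_rev, Units.val_mul, Units.val_mul]
  simp only [mul_assoc]

end Cfsg.Agent.Lib.Helper77.AschG
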