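import Cfsg.Agent.Lib.Helper77.AschG.SN

set_option autoImplicit false

namespace Cfsg.Agent.Lib.Helper77.AschG

open Cfsg Cfsg.Geo Cfsg.Agent.Lib.Helper77.Asch Cfsg.Agent.Lib.Helper5.AschC
open scoped MatrixGroups Matrix

variable {n : ℕ} {F : Type*} [Field F]

theorem tensor_basis_of_hom {a k : ℕ} (hnk : n = a ^ k)
    (Ψ : Matrix (Fin k → Fin a) (Fin k → Fin a) F →ₐ[F] Matrix (Fin n) (Fin n) F) :
    ∃ (e : Fin n ≃ (Fin k → Fin a)) (P : GL (Fin n) F), ∀ M, Ψ M = tw e P M := by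
  classical
  have hcard : Fintype.card (Fin n) = Fintype.card (Fin k → Fin a) := by
    simp [hnk]
  let e : Fin n ≃ (Fin k → Fin a) := Fintype.equivOfCardEq hcard
  obtain ⟨P, hP⟩ := skolem_noether (Ψ.comp (Matrix.reindexAlgEquiv F F e).toAlgHom)
  refine ⟨e, P, fun M => ?_⟩
  have h := hP (Matrix.reindex e.symm e.symm M)
  unfold tw
  rw [← h]
  simp

end Cfsg.Agent.Lib.Helper77.AschG
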