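import Cfsg.Agent.Lib.Helper77.AschG.DefsB

set_option autoImplicit false

namespace Cfsg.Agent.Lib.Helper77.AschG

open Cfsg Cfsg.Geo Cfsg.Agent.Lib.Helper77.Asch Cfsg.Agent.Lib.Helper5.AschC
open scoped MatrixGroups Matrix

variable {n : ℕ} {F : Type*} [Field F]

/-- the bilinear form with Gram matrix `J`. -/
def gramF (J : Matrix (Fin n) (Fin n) F) (u v : Fin n → F) : F := u ⬝ᵥ (J *ᵥ v)

theorem gram_bilin (J : Matrix (Fin n) (Fin n) F) : IsBilinearForm (gramF J) where
  add_left x y v := by simp only [gramF, add_dotProduct]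
  smul_left c x v := by simp only [gramF, smul_dotProduct, smul_eq_mul]
  add_right v x y := by simp only [gramF, Matrix.mulVec_add, dotProduct_add]
  smul_right c v x := by simp only [gramF, Matrix.mulVec_smul, dotProduct_smul, smul_eq_mul]

theorem gram_swap (J : Matrix (Fin n) (Fin n) F) (u v : Fin n → F) : gramF J u v = gramF Jᵀ v u := by
  simp only [gramF]
  rw [dotProduct_comm, Matrix.dotProduct_mulVec, Matrix.vecMul_transpose]

theorem gram_sim (J : Matrix (Fin n) (Fin n) F) (g : Matrix (Fin n) (Fin n) F) (c : F)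
    (h : gᵀ * J * g = c • J) (u v : Fin n → F) : gramF J (g *ᵥ u) (g *ᵥ v) = c * gramF J u v := by
  have e : gramF J (g *ᵥ u) (g *ᵥ v) = gramF (gᵀ * J * g) u v := by
    simp only [gramF]
    rw [← Matrix.mulVec_mulVec, ← Matrix.mulVec_mulVec, Matrix.dotProduct_mulVec u gᵀ,
      Matrix.vecMul_transpose]
  rw [e, h]
  simp only [gramF, Matrix.smul_mulVec, dotProduct_smul, smul_eq_mul]

theorem gram_left_ne (J : Matrix (Fin n) (Fin n) F) (hJ : IsUnit J) (v : Fin n → F) (hv : v ≠ 0) :
    ∃ x, gramF J x v ≠ 0 := by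
  classical
  have h1 : J *ᵥ v ≠ 0 := by
    intro h0
    obtain ⟨U, rfl⟩ := hJ
    have : v = ((U⁻¹ : (Matrix (Fin n) (Fin n) F)ˣ) : Matrix (Fin n) (Fin n) F) *ᵥ
        ((U : Matrix (Fin n) (Fin n) F) *ᵥ v) := by
      rw [Matrix.mulVec_mulVec, ← Units.val_mul, inv_mul_cancel, Units.val_one, Matrix.one_mulVec]
    rw [h0, Matrix.mulVec_zero] at this
    exact hv this
  obtain ⟨k, hk⟩ : ∃ k, (J *ᵥ v) k ≠ 0 := by
    by_contra h
    push Not at h
    exact h1 (funext h)
  refine ⟨Pi.single k 1, ?_⟩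
  simp only [gramF, single_one_dotProduct]
  exact hk

theorem gram_nondeg (J : Matrix (Fin n) (Fin n) F) (hJ : IsUnit J) : IsNondegenerateForm (gramF J) := by
  intro v hv
  refine ⟨gram_left_ne J hJ v hv, ?_⟩
  obtain ⟨x, hx⟩ := gram_left_ne Jᵀ ((Matrix.isUnit_transpose J).2 hJ) v hv
  exact ⟨x, by rw [gram_swap]; exact hx⟩

theorem gram_alt (J : Matrix (Fin n) (Fin n) F) (hs : Jᵀ = -J) (hd : ∀ i, J i i = 0) (v : Fin n → F) :
    gramF J v v = 0 := by
  classical
  have hsk : ∀ u w, gramF J u w = -gramF J w u := by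
    intro u w
    rw [gram_swap, hs]
    simp only [gramF, Matrix.neg_mulVec, dotProduct_neg]
  have hB := gram_bilin J
  have e : v = ∑ i, v i • (Pi.single i 1 : Fin n → F) := by
    ext j
    simp [Finset.sum_apply, Pi.single_apply]
  rw [e]
  refine Finset.sum_induction _ (fun w => gramF J w w = 0) ?_ ?_ ?_
  · intro a b ha hb
    show gramF J (a + b) (a + b) = 0
    rw [hB.add_left, hB.add_right, hB.add_right, ha, hb, hsk b a]
    ring
  · show gramF J 0 0 = 0
    simp [gramF]
  · intro i _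
    show gramF J (v i • Pi.single i 1) (v i • Pi.single i 1) = 0
    rw [hB.smul_left, hB.smul_right]
    have : gramF J (Pi.single i 1) (Pi.single i 1) = 0 := by
      simp only [gramF, single_one_dotProduct, Matrix.mulVec_single_one]
      exact hd i
    rw [this, mul_zero, mul_zero]

/-- GRAM. -/
theorem forms_of_gram [Fintype F] (G : Subgroup (GL (Fin n) F)) (J : Matrix (Fin n) (Fin n) F) (hJ : IsUnit J)
    (hs : Jᵀ = J ∨ Jᵀ = -J) (hd : ∀ i, J i i = 0)
    (hG : ∀ g ∈ G, ∃ c : Fˣ, (g : Matrix (Fin n) (Fin n) F)ᵀ * J * (g : Matrix (Fin n) (Fin n) F) = (c : F) • J) :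
    (Odd (Fintype.card F) ∧ ∃ Q : (Fin n → F) → F, IsNondegenerateQuadraticForm Q ∧ G ≤ quadSimilarityGroup Q) ∨
    (∃ f : (Fin n → F) → (Fin n → F) → F, IsSymplecticForm f ∧ G ≤ similarityGroup f) := by
  classical
  have hB := gram_bilin J
  by_cases hcase : Jᵀ = J ∧ (2 : F) ≠ 0
  · obtain ⟨hsym, h2⟩ := hcase
    left
    refine ⟨odd_card_of_two_ne_zero h2, fun v => 2⁻¹ * gramF J v v, ?_, ?_⟩
    · have hpol : QuadraticMap.polar (fun v => 2⁻¹ * gramF J v v) = gramF J := by
        funext u v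
        simp only [QuadraticMap.polar]
        rw [hB.add_left, hB.add_right, hB.add_right, gram_swap J v u, hsym]
        field_simp
        ring
      refine ⟨?_, ?_, ?_⟩
      · intro c v
        show 2⁻¹ * gramF J (c • v) (c • v) = c ^ 2 * (2⁻¹ * gramF J v v)
        rw [hB.smul_left, hB.smul_right]
        ring
      · rw [hpol]; exact hB
      · rw [hpol]; exact gram_nondeg J hJ
    · intro g hg
      obtain ⟨c, hc⟩ := hG g hg
      refine ⟨c, fun v => ?_⟩
      show 2⁻¹ * gramF J _ _ = (c : F) * (2⁻¹ * gramF J v v)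
      rw [gram_sim J _ _ hc]
      ring
  · right
    have hsk : Jᵀ = -J := by
      rcases hs with h | h
      · have h2 : (2 : F) = 0 := by
          by_contra h2
          exact hcase ⟨h, h2⟩
        rw [h]
        ext i j
        have : J i j + J i j = 0 := by
          have : J i j + J i j = 2 * J i j := by ring
          rw [this, h2, zero_mul]
        simp only [Matrix.neg_apply]
        exact eq_neg_of_add_eq_zero_left this
      · exact h
    refine ⟨gramF J, ⟨hB, ?_, gram_alt J hsk hd, gram_nondeg J hJ⟩, ?_⟩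
    · intro v w
      rw [gram_swap, hsk]
      simp only [gramF, Matrix.neg_mulVec, dotProduct_neg]
    · intro g hg
      obtain ⟨c, hc⟩ := hG g hg
      exact ⟨c, fun u v => gram_sim J _ _ hc u v⟩

end Cfsg.Agent.Lib.Helper77.AschG
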