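import Cfsg.Agent.Lib.Helper77.AschG.DefsB

set_option autoImplicit false

namespace Cfsg.Agent.Lib.Helper77.AschG

open Cfsg Cfsg.Geo Cfsg.Agent.Lib.Helper77.Asch Cfsg.Agent.Lib.Helper5.AschC
open scoped MatrixGroups Matrix

variable {n : ℕ} {F : Type*} [Field F]

theorem w2b_pt_mul {a k : ℕ} (y z : Fin k → Matrix (Fin a) (Fin a) F) :
    pt y * pt z = pt (fun i => y i * z i) := by
  ext u v
  simp only [Matrix.mul_apply, pt]
  rw [Finset.prod_univ_sum, Fintype.piFinset_univ]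
  exact Finset.sum_congr rfl (fun w _ => Finset.prod_mul_distrib.symm)

theorem w2b_pt_neg_one {a k : ℕ} :
    pt (fun _ : Fin k => (-1 : Matrix (Fin a) (Fin a) F)) = (-1 : F) ^ k • 1 := by
  ext u v
  simp only [pt, Matrix.neg_apply, Matrix.smul_apply, smul_eq_mul, Matrix.one_apply]
  have h1 : ∀ i : Fin k, -(if u i = v i then (1 : F) else 0) = (-1) * (if u i = v i then (1 : F) else 0) :=
    fun i => by ring
  rw [Finset.prod_congr rfl (fun i _ => h1 i), Finset.prod_mul_distrib, Finset.prod_const,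
    Finset.card_univ, Fintype.card_fin, Finset.prod_ite_zero]
  congr 1
  simp [funext_iff]

theorem w2b_skew (b c : Fin 2) :
    (!![0, 1; -1, 0] : Matrix (Fin 2) (Fin 2) F) c b = (-1) * (!![0, 1; -1, 0] : Matrix (Fin 2) (Fin 2) F) b c := by
  fin_cases b <;> fin_cases c <;> simp

theorem w2b_sq : (!![0, 1; -1, 0] : Matrix (Fin 2) (Fin 2) F) * !![0, 1; -1, 0] = -1 := by
  ext b c
  fin_cases b <;> fin_cases c <;> simp [Matrix.mul_apply, Fin.sum_univ_two]

/-- W2B. -/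
theorem gram_two_props {k : ℕ} (hk : 0 < k) :
    (pt (fun _ : Fin k => (!![0, 1; -1, 0] : Matrix (Fin 2) (Fin 2) F)))ᵀ = (-1 : F) ^ k • pt (fun _ : Fin k => (!![0, 1; -1, 0] : Matrix (Fin 2) (Fin 2) F)) ∧
    pt (fun _ : Fin k => (!![0, 1; -1, 0] : Matrix (Fin 2) (Fin 2) F)) * pt (fun _ : Fin k => (!![0, 1; -1, 0] : Matrix (Fin 2) (Fin 2) F)) = (-1 : F) ^ k • 1 ∧
    ∀ u, pt (fun _ : Fin k => (!![0, 1; -1, 0] : Matrix (Fin 2) (Fin 2) F)) u u = 0 := by
  refine ⟨?_, ?_, ?_⟩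
  · ext u v
    simp only [Matrix.transpose_apply, pt, Matrix.smul_apply, smul_eq_mul]
    rw [Finset.prod_congr rfl (fun i _ => w2b_skew (F := F) (u i) (v i)), Finset.prod_mul_distrib,
      Finset.prod_const, Finset.card_univ, Fintype.card_fin]
  · rw [w2b_pt_mul]
    simp only [w2b_sq]
    exact w2b_pt_neg_one
  · intro u
    simp only [pt]
    apply Finset.prod_eq_zero (Finset.mem_univ (⟨0, hk⟩ : Fin k))
    generalize u ⟨0, hk⟩ = b
    fin_cases b <;> simp

end Cfsg.Agent.Lib.Helper77.AschG
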