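import Cfsg.Agent.Lib.Helper77.AschG.W2A
import Cfsg.Agent.Lib.Helper77.AschG.W2B
import Cfsg.Agent.Lib.Helper77.AschG.GRAM

set_option autoImplicit false

namespace Cfsg.Agent.Lib.Helper77.AschG

open Cfsg Cfsg.Geo Cfsg.Agent.Lib.Helper77.Asch Cfsg.Agent.Lib.Helper5.AschC
open scoped MatrixGroups Matrix

variable {n : ℕ} {F : Type*} [Field F]

theorem w2c_bil (B : (Fin n → F) → (Fin n → F) → F) (h : IsBilinearForm B)
    (A : Matrix (Fin n) (Fin n) F) : IsBilinearForm (fun u v => B (A *ᵥ u) (A *ᵥ v)) where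
  add_left x y v := by simp only [Matrix.mulVec_add, h.add_left]
  smul_left c x v := by simp only [Matrix.mulVec_smul, h.smul_left]
  add_right v x y := by simp only [Matrix.mulVec_add, h.add_right]
  smul_right c v x := by simp only [Matrix.mulVec_smul, h.smul_right]

theorem w2c_inv_mul (P : GL (Fin n) F) (v : Fin n → F) :
    ((P⁻¹ : GL (Fin n) F) : Matrix (Fin n) (Fin n) F) *ᵥ ((P : Matrix (Fin n) (Fin n) F) *ᵥ v) = v := by
  rw [Matrix.mulVec_mulVec, ← Units.val_mul, inv_mul_cancel, Units.val_one, Matrix.one_mulVec]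

theorem w2c_mul_inv (P : GL (Fin n) F) (v : Fin n → F) :
    (P : Matrix (Fin n) (Fin n) F) *ᵥ (((P⁻¹ : GL (Fin n) F) : Matrix (Fin n) (Fin n) F) *ᵥ v) = v := by
  rw [Matrix.mulVec_mulVec, ← Units.val_mul, mul_inv_cancel, Units.val_one, Matrix.one_mulVec]

theorem w2c_nondeg (B : (Fin n → F) → (Fin n → F) → F) (h : IsNondegenerateForm B) (P : GL (Fin n) F) :
    IsNondegenerateForm (fun u v => B (((P⁻¹ : GL (Fin n) F) : Matrix (Fin n) (Fin n) F) *ᵥ u)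
      (((P⁻¹ : GL (Fin n) F) : Matrix (Fin n) (Fin n) F) *ᵥ v)) := by
  intro v hv
  have hv' : ((P⁻¹ : GL (Fin n) F) : Matrix (Fin n) (Fin n) F) *ᵥ v ≠ 0 := by
    intro h0
    apply hv
    rw [← w2c_mul_inv P v, h0, Matrix.mulVec_zero]
  obtain ⟨⟨x, hx⟩, ⟨y, hy⟩⟩ := h _ hv'
  refine ⟨⟨(P : Matrix (Fin n) (Fin n) F) *ᵥ x, ?_⟩, ⟨(P : Matrix (Fin n) (Fin n) F) *ᵥ y, ?_⟩⟩
  · simp only [w2c_inv_mul]; exact hx
  · simp only [w2c_inv_mul]; exact hy

theorem w2c_conj_apply (P g : GL (Fin n) F) (v : Fin n → F) :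
    ((P⁻¹ : GL (Fin n) F) : Matrix (Fin n) (Fin n) F) *ᵥ (((P * g * P⁻¹ : GL (Fin n) F) : Matrix (Fin n) (Fin n) F) *ᵥ v) =
      (g : Matrix (Fin n) (Fin n) F) *ᵥ (((P⁻¹ : GL (Fin n) F) : Matrix (Fin n) (Fin n) F) *ᵥ v) := by
  rw [Matrix.mulVec_mulVec, Matrix.mulVec_mulVec, ← Units.val_mul, ← Units.val_mul]
  congr 2
  group

/-- transport of an invariant quadratic form / symplectic form along conjugation by `P` -/
theorem w2c_transport [Fintype F] (G : Subgroup (GL (Fin n) F)) (P : GL (Fin n) F)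
    (h : (Odd (Fintype.card F) ∧ ∃ Q : (Fin n → F) → F, IsNondegenerateQuadraticForm Q ∧ G ≤ quadSimilarityGroup Q) ∨
      (∃ f : (Fin n → F) → (Fin n → F) → F, IsSymplecticForm f ∧ G ≤ similarityGroup f)) :
    (Odd (Fintype.card F) ∧ ∃ Q : (Fin n → F) → F, IsNondegenerateQuadraticForm Q ∧
      G.map (MulAut.conj P).toMonoidHom ≤ quadSimilarityGroup Q) ∨
    (∃ f : (Fin n → F) → (Fin n → F) → F, IsSymplecticForm f ∧
      G.map (MulAut.conj P).toMonoidHom ≤ similarityGroup f) := by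
  rcases h with ⟨hodd, Q, hQ, hG⟩ | ⟨f, hf, hG⟩
  · left
    refine ⟨hodd, fun v => Q (((P⁻¹ : GL (Fin n) F) : Matrix (Fin n) (Fin n) F) *ᵥ v), ?_, ?_⟩
    · have hpol : QuadraticMap.polar (fun v => Q (((P⁻¹ : GL (Fin n) F) : Matrix (Fin n) (Fin n) F) *ᵥ v)) =
          fun u v => QuadraticMap.polar Q (((P⁻¹ : GL (Fin n) F) : Matrix (Fin n) (Fin n) F) *ᵥ u)
            (((P⁻¹ : GL (Fin n) F) : Matrix (Fin n) (Fin n) F) *ᵥ v) := by
        funext u v
        simp only [QuadraticMap.polar, Matrix.mulVec_add]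
      refine ⟨?_, ?_, ?_⟩
      · intro c v
        simp only [Matrix.mulVec_smul, hQ.smul]
      · rw [hpol]
        exact w2c_bil _ hQ.polar_bilinear _
      · rw [hpol]
        exact w2c_nondeg _ hQ.nondegenerate P
    · rintro _ ⟨g, hg, rfl⟩
      obtain ⟨c, hc⟩ := hG hg
      refine ⟨c, fun v => ?_⟩
      show Q (((P⁻¹ : GL (Fin n) F) : Matrix (Fin n) (Fin n) F) *ᵥ
        (((P * g * P⁻¹ : GL (Fin n) F) : Matrix (Fin n) (Fin n) F) *ᵥ v)) = _
      rw [w2c_conj_apply, hc]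
  · right
    refine ⟨fun u v => f (((P⁻¹ : GL (Fin n) F) : Matrix (Fin n) (Fin n) F) *ᵥ u)
      (((P⁻¹ : GL (Fin n) F) : Matrix (Fin n) (Fin n) F) *ᵥ v), ?_, ?_⟩
    · exact ⟨w2c_bil _ hf.bilinear _, fun v w => hf.skew _ _, fun v => hf.alternating _,
        w2c_nondeg _ hf.nondegenerate P⟩
    · rintro _ ⟨g, hg, rfl⟩
      obtain ⟨c, hc⟩ := hG hg
      refine ⟨c, fun u v => ?_⟩
      show f (((P⁻¹ : GL (Fin n) F) : Matrix (Fin n) (Fin n) F) *ᵥ
        (((P * g * P⁻¹ : GL (Fin n) F) : Matrix (Fin n) (Fin n) F) *ᵥ u))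
        (((P⁻¹ : GL (Fin n) F) : Matrix (Fin n) (Fin n) F) *ᵥ
        (((P * g * P⁻¹ : GL (Fin n) F) : Matrix (Fin n) (Fin n) F) *ᵥ v)) = _
      rw [w2c_conj_apply, w2c_conj_apply, hc]

/-- W2C (transport). -/
theorem tensorWreath_two_form [Fintype F] {k : ℕ} (hk : 0 < k) (e : Fin n ≃ (Fin k → Fin 2)) (P : GL (Fin n) F) :
    (Odd (Fintype.card F) ∧ ∃ Q : (Fin n → F) → F, IsNondegenerateQuadraticForm Q ∧ tensorWreathSubgroup 2 k e P ≤ quadSimilarityGroup Q) ∨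
    (∃ f : (Fin n → F) → (Fin n → F) → F, IsSymplecticForm f ∧ tensorWreathSubgroup 2 k e P ≤ similarityGroup f) := by
  obtain ⟨p1, p2, p3⟩ := gram_two_props (F := F) hk
  set J : Matrix (Fin k → Fin 2) (Fin k → Fin 2) F :=
    pt (fun _ : Fin k => (!![0, 1; -1, 0] : Matrix (Fin 2) (Fin 2) F)) with hJ
  let R := Matrix.reindexAlgEquiv F F e.symm
  have hR : ∀ M : Matrix (Fin k → Fin 2) (Fin k → Fin 2) F, R M = Matrix.reindex e.symm e.symm M :=
    fun M => rfl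
  have hRt : ∀ M : Matrix (Fin k → Fin 2) (Fin k → Fin 2) F, (R M)ᵀ = R Mᵀ := fun M => rfl
  apply w2c_transport
  apply forms_of_gram _ (R J)
  · have h1 : J * ((-1 : F) ^ k • J) = 1 := by
      rw [Matrix.mul_smul, p2, smul_smul, ← mul_pow]
      simp
    have h2 : ((-1 : F) ^ k • J) * J = 1 := by
      rw [Matrix.smul_mul, p2, smul_smul, ← mul_pow]
      simp
    exact (isUnit_iff_exists.2 ⟨_, h1, h2⟩).map R
  · rw [hRt, p1]
    rcases neg_one_pow_eq_or F k with h | h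
    · left; rw [h, one_smul]
    · right; rw [h, neg_one_smul, map_neg]
  · intro i
    exact p3 (e i)
  · rintro _ ⟨g, hg, rfl⟩
    obtain ⟨c, hc⟩ := tensorWreath_two_gram g hg
    refine ⟨c, ?_⟩
    have hg' : (((glReindex e.symm).toMonoidHom g : GL (Fin n) F) : Matrix (Fin n) (Fin n) F) =
        R (g : Matrix (Fin k → Fin 2) (Fin k → Fin 2) F) := rfl
    rw [hg', hRt, ← map_mul, ← map_mul, hc, map_smul]

end Cfsg.Agent.Lib.Helper77.AschG
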