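import Cfsg.Agent.Lib.Helper77.AschG.DefsB
import Cfsg.Agent.Lib.Helper77.AschG.WN0

set_option autoImplicit false

namespace Cfsg.Agent.Lib.Helper77.AschG

open Cfsg Cfsg.Geo Cfsg.Agent.Lib.Helper77.Asch Cfsg.Agent.Lib.Helper5.AschC
open scoped MatrixGroups Matrix

variable {n : ℕ} {F : Type*} [Field F]

theorem wn1_reindex_symm {a k : ℕ} (e : Fin n ≃ (Fin k → Fin a)) (h : GL (Fin n) F) :
    glReindex e.symm (glReindex e h) = h := by
  apply Units.ext
  ext i j
  simp [glReindex]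

theorem wn1_rho {a k : ℕ} (e : Fin n ≃ (Fin k → Fin a)) (M : Matrix (Fin k → Fin a) (Fin k → Fin a) F) :
    Matrix.reindexAlgEquiv F F e (Matrix.reindex e.symm e.symm M) = M := by
  ext i j
  simp

/-- WN1 (transport). -/
theorem mem_tensorWreath {a k : ℕ} (hk : 0 < k) (e : Fin n ≃ (Fin k → Fin a)) (P g : GL (Fin n) F)
    (σ : Equiv.Perm (Fin k))
    (hg : ∀ i x, ∃ y, (g : Matrix (Fin n) (Fin n) F) * tw e P (slot i x) * ((g⁻¹ : GL (Fin n) F) : Matrix (Fin n) (Fin n) F)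
      = tw e P (slot (σ i) y)) :
    g ∈ tensorWreathSubgroup a k e P := by
  have hPP : ((P⁻¹ : GL (Fin n) F) : Matrix (Fin n) (Fin n) F) * (P : Matrix (Fin n) (Fin n) F) = 1 := by
    rw [← Units.val_mul, inv_mul_cancel, Units.val_one]
  have hstd : glReindex e (P⁻¹ * g * P) ∈ tensorWreathStandard a k F := by
    apply mem_tensorWreathStandard hk _ σ
    intro i x
    obtain ⟨y, hy⟩ := hg i x
    refine ⟨y, ?_⟩
    have h1 : ((glReindex e (P⁻¹ * g * P) : GL (Fin k → Fin a) F) : Matrix (Fin k → Fin a) (Fin k → Fin a) F)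
        = Matrix.reindexAlgEquiv F F e ((P⁻¹ * g * P : GL (Fin n) F) : Matrix (Fin n) (Fin n) F) := rfl
    have h2 : (((glReindex e (P⁻¹ * g * P))⁻¹ : GL (Fin k → Fin a) F) : Matrix (Fin k → Fin a) (Fin k → Fin a) F)
        = Matrix.reindexAlgEquiv F F e (((P⁻¹ * g * P)⁻¹ : GL (Fin n) F) : Matrix (Fin n) (Fin n) F) := by
      rw [← map_inv]; rfl
    have h3 : ((P⁻¹ * g * P : GL (Fin n) F) : Matrix (Fin n) (Fin n) F) *
        Matrix.reindex e.symm e.symm (slot i x) * (((P⁻¹ * g * P)⁻¹ : GL (Fin n) F) : Matrix (Fin n) (Fin n) F)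
        = Matrix.reindex e.symm e.symm (slot (σ i) y) := by
      unfold tw at hy
      calc ((P⁻¹ * g * P : GL (Fin n) F) : Matrix (Fin n) (Fin n) F) *
            Matrix.reindex e.symm e.symm (slot i x) * (((P⁻¹ * g * P)⁻¹ : GL (Fin n) F) : Matrix (Fin n) (Fin n) F)
          = ((P⁻¹ : GL (Fin n) F) : Matrix (Fin n) (Fin n) F) * ((g : Matrix (Fin n) (Fin n) F) *
              ((P : Matrix (Fin n) (Fin n) F) * Matrix.reindex e.symm e.symm (slot i x) *
                ((P⁻¹ : GL (Fin n) F) : Matrix (Fin n) (Fin n) F)) *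
              ((g⁻¹ : GL (Fin n) F) : Matrix (Fin n) (Fin n) F)) * (P : Matrix (Fin n) (Fin n) F) := by
            simp only [mul_inv_rev, inv_inv, Units.val_mul, mul_assoc]
        _ = ((P⁻¹ : GL (Fin n) F) : Matrix (Fin n) (Fin n) F) * ((P : Matrix (Fin n) (Fin n) F) *
              Matrix.reindex e.symm e.symm (slot (σ i) y) *
                ((P⁻¹ : GL (Fin n) F) : Matrix (Fin n) (Fin n) F)) * (P : Matrix (Fin n) (Fin n) F) := by
            rw [hy]
        _ = (((P⁻¹ : GL (Fin n) F) : Matrix (Fin n) (Fin n) F) * (P : Matrix (Fin n) (Fin n) F)) *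
              Matrix.reindex e.symm e.symm (slot (σ i) y) *
                (((P⁻¹ : GL (Fin n) F) : Matrix (Fin n) (Fin n) F) * (P : Matrix (Fin n) (Fin n) F)) := by
            simp only [mul_assoc]
        _ = _ := by rw [hPP, one_mul, mul_one]
    have h4 := congrArg (Matrix.reindexAlgEquiv F F e) h3
    rw [map_mul, map_mul, wn1_rho, wn1_rho] at h4
    rw [h1, h2]
    exact h4
  refine ⟨glReindex e.symm (glReindex e (P⁻¹ * g * P)), ⟨_, hstd, rfl⟩, ?_⟩
  rw [wn1_reindex_symm]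
  show P * (P⁻¹ * g * P) * P⁻¹ = g
  group

end Cfsg.Agent.Lib.Helper77.AschG
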