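import Cfsg.Agent.Lib.Helper77.AschG.AGKP
import Cfsg.Agent.Lib.Helper77.AschG.SPC
import Cfsg.Agent.Lib.Helper77.AschG.TB1
import Cfsg.Agent.Lib.Helper77.AschG.TB2
import Cfsg.Agent.Lib.Helper77.AschG.WN1
import Cfsg.Agent.Lib.Helper77.AschG.W2C
import Cfsg.Agent.Lib.Helper38.AschG.Defs
import Cfsg.Agent.Lib.Helper5.AschC.QFAC
import Cfsg.Agent.Lib.Helper5.AschC.QGEN
import Cfsg.Agent.Lib.Helper5.AschC.MINI
import Cfsg.Agent.Lib.Helper5.AschC.IDF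
import Cfsg.Agent.Lib.Helper5.AschC.DENS
import Cfsg.Agent.Lib.Helper5.AschC.NRM
import Cfsg.Agent.Lib.Helper5.AschC.PW
import Cfsg.Agent.Lib.Helper5.AschC.EXT

set_option autoImplicit false

namespace Cfsg.Agent.Lib.Helper77.AschG

open Cfsg Cfsg.Geo Cfsg.Agent.Lib.Helper77.Asch Cfsg.Agent.Lib.Helper5.AschC Cfsg.Agent.Lib.Helper38.AschG
open scoped MatrixGroups Matrix

variable {n : ℕ} {F : Type*} [Field F]

theorem caseB [Fintype F] (h3 : 3 ≤ n) (H N : Subgroup (GL (Fin n) F))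
    (hm : MinOver H (scalars (Fin n) F) N) (hnab : ¬ ⁅N, N⁆ ≤ scalars (Fin n) F)
    (hN : ActsAbsolutelyIrreducibly (matrixSet N))
    (hns : ¬ ∀ M : Subgroup (GL (Fin n) F), scalars (Fin n) F ≤ M → M ≤ N → NormBy N M →
      M = scalars (Fin n) F ∨ M = N) : InGeoG H := by
  classical
  have hn : 0 < n := by omega
  have hZc : ∀ z ∈ scalars (Fin n) F, ∀ g : GL (Fin n) F, g * z = z * g :=
    fun z hz g => Cfsg.Agent.Lib.Helper77.Asch.scalars_central z hz g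
  obtain ⟨Q, k, g, hk, hgH, hQN, hQZ, hQnorm, hcomm, hgen, hfac, hperm⟩ :=
    exists_commuting_conj' H (scalars (Fin n) F) N hZc hm hnab hns
  have hA := spanAlg_norm N Q hQnorm
  obtain ⟨I, hI⟩ := exists_minIdl hn (spanAlg Q)
  obtain ⟨U, hU⟩ := ideal_faith hn N hN.1 _ hA I hI (idl_inv_of_fac Q N hfac I hI.idl)
  obtain ⟨a, φ, ha, hφ⟩ := dens _ U hU (cen_finrank_of_fac hn Q N hfac hN)
  have hcomm' : ∀ i j, i ≠ j → ∀ x y, (conjA (g i)).comp φ x * (conjA (g j)).comp φ y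
      = (conjA (g j)).comp φ y * (conjA (g i)).comp φ x :=
    fun i j hij => conj_comm Q (g i) (g j) (hcomm i j hij) φ hφ
  have hnk : n = a ^ k := pw hn ha (fun i => (conjA (g i)).comp φ) hcomm'
    (adjoin_conj_eq_top hn N Q g hN hgen φ hφ)
  obtain ⟨Ψ, hΨ⟩ := exists_tensor_hom (fun i => (conjA (g i)).comp φ) hcomm'
  obtain ⟨e, P, hP⟩ := tensor_basis_of_hom hnk Ψ
  have hslot : ∀ i x, tw e P (slot i x) = conjA (g i) (φ x) := by
    intro i x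
    rw [← hP, hΨ]
    rfl
  have hle : H ≤ tensorWreathSubgroup a k e P := by
    intro h hh
    obtain ⟨σ, hσ⟩ := hperm h hh
    refine mem_tensorWreath (by omega) e P h σ (fun i x => ?_)
    have h1 : conjA (h * g i) (φ x) ∈ (spanAlg Q).map (conjA (g (σ i))) := by
      rw [← spanAlg_conj, ← hσ i, spanAlg_conj]
      exact ⟨φ x, hφ ▸ ⟨x, rfl⟩, rfl⟩
    obtain ⟨z, hz, hz'⟩ := h1
    rw [← hφ] at hz
    obtain ⟨y, rfl⟩ := hz
    refine ⟨y, ?_⟩
    rw [hslot, hslot]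
    have h2 : conjA (g (σ i)) (φ y) = conjA (h * g i) (φ x) := hz'
    rw [h2, conjA_mul]
    rfl
  have ha1 : a ≠ 1 := by
    rintro rfl
    exact hQZ (le_scalars_of_range hn φ Q hφ)
  by_cases ha2 : a = 2
  · subst ha2
    rcases tensorWreath_two_form (by omega : 0 < k) e P with ⟨ho, Q', hQ', hle'⟩ | ⟨f, hf, hle'⟩
    · exact Or.inl (Or.inr (Or.inr (Or.inr (Or.inr (Or.inr (Or.inl ⟨ho, Q', hQ', hle.trans hle'⟩))))))
    · exact Or.inl (Or.inr (Or.inr (Or.inr (Or.inr (Or.inr (Or.inr (Or.inl ⟨f, hf, hle.trans hle'⟩)))))))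
  · exact Or.inr (Or.inr ⟨a, k, e, P, by omega, hk, hle⟩)

end Cfsg.Agent.Lib.Helper77.AschG
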