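import Cfsg.Agent.Lib.Helper77.Asch.Main

/-! Ladder ASCHG (blocks A, B): general-dimension C6 and C7 parts of Aschbacher's theorem for GL_n(F) (definitions). -/

set_option autoImplicit false

namespace Cfsg.Agent.Lib.Helper77.AschG

open Cfsg Cfsg.Geo Cfsg.Agent.Lib.Helper77.Asch
open scoped MatrixGroups Matrix

variable {n : ℕ} {F : Type*} [Field F]

/-- `H` lies in a member of one of the eight geometric classes of `GL_n(F)`. -/
def InCls [Fintype F] (H : Subgroup (GL (Fin n) F)) : Prop :=
  ∃ M : Subgroup (GL (Fin n) F), InLinearClass n F M ∧ H ≤ M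

/-- `b` is a basis in which every element of `R` is monomial with non-zero entries `s`-th roots of unity. -/
def IsMonoBasis (R : Subgroup (GL (Fin n) F)) (s : ℕ) (b : Module.Basis (Fin n) F (Fin n → F)) : Prop :=
  ∀ x ∈ R, ∃ (π : Equiv.Perm (Fin n)) (c : Fin n → F), (∀ j, c j ^ s = 1) ∧
    ∀ j, (x : Matrix (Fin n) (Fin n) F) *ᵥ b j = c j • b (π j)

end Cfsg.Agent.Lib.Helper77.AschG
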