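import Cfsg.Agent.Lib.Helper77.AschG.Defs
import Cfsg.Agent.Lib.Helper77.Asch.SQ2

set_option autoImplicit false

namespace Cfsg.Agent.Lib.Helper77.AschG

open Cfsg Cfsg.Geo Cfsg.Agent.Lib.Helper77.Asch
open scoped MatrixGroups Matrix

variable {n : ℕ} {F : Type*} [Field F]

/-- MONOU. -/
theorem unitary_of_monomial (R : Subgroup (GL (Fin n) F)) (s : ℕ) (b : Module.Basis (Fin n) F (Fin n → F))
    (hb : IsMonoBasis R s b) (σ : F ≃+* F) (h1 : σ ≠ RingEquiv.refl F) (h2 : ∀ a, σ (σ a) = a)
    (h3 : ∀ c : F, c ^ s = 1 → c * σ c = 1) :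
    ∃ f : (Fin n → F) → (Fin n → F) → F, IsUnitaryForm σ f ∧ FixesForm (matrixSet R) f := by
  classical
  refine ⟨fun u v => ∑ i, b.repr u i * σ (b.repr v i), ⟨h1, h2, ?_, ?_, ?_, ?_⟩, ?_⟩
  · intro x y v
    simp only [map_add, Finsupp.add_apply, add_mul, Finset.sum_add_distrib]
  · intro c x v
    simp only [map_smul, Finsupp.smul_apply, smul_eq_mul, Finset.mul_sum, mul_assoc]
  · intro v w
    rw [map_sum]
    refine Finset.sum_congr rfl fun i _ => ?_
    rw [map_mul, h2, mul_comm]
  · intro v hv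
    have : ∃ i, b.repr v i ≠ 0 := by
      by_contra hcon
      push Not at hcon
      apply hv
      apply b.repr.injective
      ext i
      simpa using hcon i
    obtain ⟨i, hi⟩ := this
    constructor
    · refine ⟨b i, ?_⟩
      beta_reduce
      rw [Finset.sum_eq_single i]
      · rw [Module.Basis.repr_self, Finsupp.single_eq_same, one_mul]
        exact (map_ne_zero σ).mpr hi
      · intro j _ hj
        rw [Module.Basis.repr_self, Finsupp.single_eq_of_ne hj, zero_mul]
      · intro h; exact absurd (Finset.mem_univ i) h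
    · refine ⟨b i, ?_⟩
      beta_reduce
      rw [Finset.sum_eq_single i]
      · rw [Module.Basis.repr_self, Finsupp.single_eq_same, map_one, mul_one]
        exact hi
      · intro j _ hj
        rw [Module.Basis.repr_self, Finsupp.single_eq_of_ne hj, map_zero, mul_zero]
      · intro h; exact absurd (Finset.mem_univ i) h
  · rintro _ ⟨g, hg, rfl⟩ u v
    obtain ⟨τ, c, hc0, hc⟩ := hb g hg
    change ∑ i, b.repr ((g : Matrix (Fin n) (Fin n) F) *ᵥ u) i *
      σ (b.repr ((g : Matrix (Fin n) (Fin n) F) *ᵥ v) i) = ∑ i, b.repr u i * σ (b.repr v i)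
    rw [← Equiv.sum_comp τ]
    refine Finset.sum_congr rfl fun i _ => ?_
    rw [sq2_repr b g τ c hc, sq2_repr b g τ c hc, map_mul]
    calc c i * b.repr u i * (σ (c i) * σ (b.repr v i))
        = (c i * σ (c i)) * (b.repr u i * σ (b.repr v i)) := by ring
      _ = _ := by rw [h3 _ (hc0 i), one_mul]

end Cfsg.Agent.Lib.Helper77.AschG
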