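import Cfsg.Agent.Lib.Helper77.AschG.DefsB
import Cfsg.Agent.Lib.Helper77.AschG.PT

set_option autoImplicit false

namespace Cfsg.Agent.Lib.Helper77.AschG

open Cfsg Cfsg.Geo Cfsg.Agent.Lib.Helper77.Asch Cfsg.Agent.Lib.Helper5.AschC
open scoped MatrixGroups Matrix

variable {n : ℕ} {F : Type*} [Field F]

theorem w2a_two (y : Matrix (Fin 2) (Fin 2) F) :
    yᵀ * !![0, 1; -1, 0] * y = y.det • (!![0, 1; -1, 0] : Matrix (Fin 2) (Fin 2) F) := by
  ext i j
  fin_cases i <;> fin_cases j <;>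
    simp [Matrix.mul_apply, Fin.sum_univ_two, Matrix.det_fin_two] <;> ring

theorem w2a_pt_smul {a k : ℕ} (d : Fin k → F) (y : Fin k → Matrix (Fin a) (Fin a) F) :
    pt (fun i => d i • y i) = (∏ i, d i) • pt y := by
  ext u v
  simp only [pt, Matrix.smul_apply, smul_eq_mul, Finset.prod_mul_distrib]

theorem w2a_mul_fp {a k : ℕ} (σ : Equiv.Perm (Fin k)) (M : Matrix (Fin k → Fin a) (Fin k → Fin a) F)
    (u v : Fin k → Fin a) :
    (M * (fp σ : Matrix (Fin k → Fin a) (Fin k → Fin a) F)) u v = M u (v ∘ σ.symm) := by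
  classical
  rw [Matrix.mul_apply, Finset.sum_eq_single (v ∘ σ.symm)]
  · have : v = (v ∘ σ.symm) ∘ σ := by
      funext i
      simp
    simp only [fp]
    rw [if_pos this, mul_one]
  · intro y _ hy
    have : v ≠ y ∘ σ := by
      rintro rfl
      apply hy
      funext i
      simp
    simp only [fp]
    rw [if_neg this, mul_zero]
  · intro h
    exact absurd (Finset.mem_univ _) h

theorem w2a_fpT_mul {a k : ℕ} (σ : Equiv.Perm (Fin k)) (M : Matrix (Fin k → Fin a) (Fin k → Fin a) F)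
    (u v : Fin k → Fin a) :
    ((fp σ : Matrix (Fin k → Fin a) (Fin k → Fin a) F)ᵀ * M) u v = M (u ∘ σ.symm) v := by
  classical
  rw [Matrix.mul_apply, Finset.sum_eq_single (u ∘ σ.symm)]
  · have : u = (u ∘ σ.symm) ∘ σ := by
      funext i
      simp
    simp only [fp, Matrix.transpose_apply]
    rw [if_pos this, one_mul]
  · intro y _ hy
    have : u ≠ y ∘ σ := by
      rintro rfl
      apply hy
      funext i
      simp
    simp only [fp, Matrix.transpose_apply]
    rw [if_neg this, zero_mul]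
  · intro h
    exact absurd (Finset.mem_univ _) h

/-- W2A. -/
theorem tensorWreath_two_gram {k : ℕ} (g : GL (Fin k → Fin 2) F) (hg : g ∈ tensorWreathStandard 2 k F) :
    ∃ c : Fˣ, (g : Matrix (Fin k → Fin 2) (Fin k → Fin 2) F)ᵀ * pt (fun _ => !![0, 1; -1, 0]) * (g : Matrix (Fin k → Fin 2) (Fin k → Fin 2) F)
      = (c : F) • pt (fun _ : Fin k => (!![0, 1; -1, 0] : Matrix (Fin 2) (Fin 2) F)) := by
  classical
  set J : Matrix (Fin k → Fin 2) (Fin k → Fin 2) F :=
    pt (fun _ : Fin k => (!![0, 1; -1, 0] : Matrix (Fin 2) (Fin 2) F)) with hJ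
  unfold tensorWreathStandard at hg
  induction hg using Subgroup.closure_induction with
  | mem g hg =>
    rcases hg with ⟨gs, hgs⟩ | ⟨σ, hσ⟩
    · have e : (g : Matrix (Fin k → Fin 2) (Fin k → Fin 2) F) =
          pt (fun i => (gs i : Matrix (Fin 2) (Fin 2) F)) := by
        ext x y
        exact hgs x y
      refine ⟨∏ i, Matrix.GeneralLinearGroup.det (gs i), ?_⟩
      rw [e, pt_transpose, hJ, pt_mul, pt_mul]
      simp only [w2a_two]
      rw [w2a_pt_smul]
      congr 1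
      rw [Units.coe_prod]
      rfl
    · have e : (g : Matrix (Fin k → Fin 2) (Fin k → Fin 2) F) = fp σ := by
        ext x y
        exact hσ x y
      refine ⟨1, ?_⟩
      rw [e, Units.val_one, one_smul]
      ext u v
      rw [w2a_mul_fp, w2a_fpT_mul, hJ]
      simp only [pt, Function.comp]
      exact Equiv.prod_comp σ.symm (fun i => (!![0, 1; -1, 0] : Matrix (Fin 2) (Fin 2) F) (u i) (v i))
  | one => exact ⟨1, by simp⟩
  | mul g h _ _ ihg ihh =>
    obtain ⟨c, hc⟩ := ihg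
    obtain ⟨d, hd⟩ := ihh
    refine ⟨c * d, ?_⟩
    rw [Units.val_mul, Matrix.transpose_mul]
    calc (h : Matrix (Fin k → Fin 2) (Fin k → Fin 2) F)ᵀ * (g : Matrix (Fin k → Fin 2) (Fin k → Fin 2) F)ᵀ * J *
          ((g : Matrix (Fin k → Fin 2) (Fin k → Fin 2) F) * (h : Matrix (Fin k → Fin 2) (Fin k → Fin 2) F))
        = (h : Matrix (Fin k → Fin 2) (Fin k → Fin 2) F)ᵀ *
          ((g : Matrix (Fin k → Fin 2) (Fin k → Fin 2) F)ᵀ * J * (g : Matrix (Fin k → Fin 2) (Fin k → Fin 2) F)) *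
          (h : Matrix (Fin k → Fin 2) (Fin k → Fin 2) F) := by simp only [mul_assoc]
      _ = ((c * d : Fˣ) : F) • J := by
          rw [hc, Matrix.mul_smul, Matrix.smul_mul, hd, smul_smul, Units.val_mul]
  | inv g _ ih =>
    obtain ⟨c, hc⟩ := ih
    refine ⟨c⁻¹, ?_⟩
    set G : Matrix (Fin k → Fin 2) (Fin k → Fin 2) F := (g : Matrix (Fin k → Fin 2) (Fin k → Fin 2) F) with hG
    set G' : Matrix (Fin k → Fin 2) (Fin k → Fin 2) F :=
      ((g⁻¹ : GL (Fin k → Fin 2) F) : Matrix (Fin k → Fin 2) (Fin k → Fin 2) F) with hG'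
    have h1 : G * G' = 1 := by rw [hG, hG', ← Units.val_mul, mul_inv_cancel, Units.val_one]
    have h2 : G'ᵀ * Gᵀ = 1 := by rw [← Matrix.transpose_mul, h1, Matrix.transpose_one]
    have h3 : G'ᵀ * (Gᵀ * J * G) * G' = J := by
      calc G'ᵀ * (Gᵀ * J * G) * G' = (G'ᵀ * Gᵀ) * J * (G * G') := by simp only [mul_assoc]
        _ = J := by rw [h1, h2, one_mul, mul_one]
    rw [hc, Matrix.mul_smul, Matrix.smul_mul] at h3
    calc G'ᵀ * J * G' = (c : F)⁻¹ • ((c : F) • (G'ᵀ * J * G')) := by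
          rw [smul_smul, inv_mul_cancel₀ c.ne_zero, one_smul]
      _ = ((c⁻¹ : Fˣ) : F) • J := by rw [h3, Units.val_inv_eq_inv_val]

end Cfsg.Agent.Lib.Helper77.AschG
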